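import Mathlib
import Cfsg.Prelude.Def_OddOrderLocal
import Cfsg.Agent.H19.Fitting
import Cfsg.Agent.H20.PxQ
import Cfsg.Agent.H20.Sylow
import Cfsg.Agent.H53.Stabilizer
import Cfsg.Agent.H54.PPart

/-!
Signalizers of a maximal local subgroup with Fitting subgroup of composite order.
-/

set_option autoImplicit false
set_option linter.style.haveILetI false
open scoped Pointwise commutatorElement

namespace Cfsg.Agent.H54

variable {G : Type*} [Group G]

/-- `F(H) ∩ C(F(H))`. -/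
def zFitting (H : Subgroup G) : Subgroup G :=
  Cfsg.fittingOf H ⊓ Subgroup.centralizer (Cfsg.fittingOf H : Set G)

theorem zFitting_nilpotent [Finite G] (H : Subgroup G) : Group.IsNilpotent (zFitting H) :=
  nilpotent_mono inf_le_left (fittingOf_nilpotent H)

theorem le_normalizer_zFitting (H : Subgroup G) :
    H ≤ Subgroup.normalizer (zFitting H : Set G) :=
  Cfsg.Agent.H20.le_normalizer_inf (le_normalizer_fittingOf H)
    (Cfsg.Agent.H20.le_normalizer_centralizer (le_normalizer_fittingOf H))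

theorem zFitting_le {H M : Subgroup G} (hM : M ≤ Cfsg.fittingOf H)
    (hCM : Cfsg.fittingOf H ⊓ Subgroup.centralizer (M : Set G) ≤ M) : zFitting H ≤ M :=
  (inf_le_inf_left _ (Subgroup.centralizer_le hM)).trans hCM

theorem prime_dvd_zFitting [Finite G] {H : Subgroup G} {p : ℕ} [Fact p.Prime]
    (hp : p ∣ Nat.card (Cfsg.fittingOf H)) : p ∣ Nat.card (zFitting H) := by
  obtain ⟨z, hz, ho, hc⟩ := exists_central_of_dvd (fittingOf_nilpotent H) hp
  have hzZ : z ∈ zFitting H := ⟨hz, fun f hf => (hc f hf).symm.eq⟩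
  rw [← ho, ← Subgroup.orderOf_mk z hzZ]
  exact orderOf_dvd_natCard _

/-- The primary parts of `Z(F(H))` have normalizer `H`. -/
theorem normalizer_pPart_zFitting [Finite G] {H : Subgroup G}
    (hHmax : ∀ L : Subgroup G, Cfsg.IsLocalSubgroup L → H ≤ L → L = H) {p : ℕ} [Fact p.Prime]
    (hp : p ∣ Nat.card (Cfsg.fittingOf H)) :
    Subgroup.normalizer (pPart p (zFitting H) : Set G) = H :=
  hHmax _ ⟨p, _, Fact.out, pPart_isPGroup p _,
      pPart_ne_bot (zFitting_nilpotent H) (prime_dvd_zFitting hp), rfl⟩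
    ((le_normalizer_zFitting H).trans (normalizer_le_normalizer_pPart p _))

/-- Centralizers of primary parts of `M` lie in `H`. -/
theorem centralizer_pPart_le [Finite G] {H : Subgroup G}
    (hHmax : ∀ L : Subgroup G, Cfsg.IsLocalSubgroup L → H ≤ L → L = H) {M : Subgroup G}
    (hM : M ≤ Cfsg.fittingOf H) (hCM : Cfsg.fittingOf H ⊓ Subgroup.centralizer (M : Set G) ≤ M)
    {p : ℕ} [Fact p.Prime] (hp : p ∣ Nat.card (Cfsg.fittingOf H)) :
    Subgroup.centralizer (pPart p M : Set G) ≤ H := by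
  have h1 : pPart p (zFitting H) ≤ pPart p M :=
    le_pPart (nilpotent_mono hM (fittingOf_nilpotent H)) (pPart_isPGroup p _)
      ((pPart_le p _).trans (zFitting_le hM hCM))
  refine (Subgroup.centralizer_le h1).trans ?_
  refine le_trans ?_ (normalizer_pPart_zFitting hHmax hp).le
  exact fun x hx => Subgroup.mem_normalizer_iff.2 fun z => ⟨fun hz => by
      rw [show x * z * x⁻¹ = z by rw [← hx z hz, mul_inv_cancel_right]]; exact hz,
    fun hz => by
      have h2 : x * z * x⁻¹ * x = x * (x * z * x⁻¹) := hx _ hz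
      rw [inv_mul_cancel_right] at h2
      have h3 : z = x * z * x⁻¹ := mul_left_cancel h2
      rw [h3]; exact hz⟩

variable [Finite G] {H M R : Subgroup G}

/-- Elements of `R` of order prime to `|F|` centralizing `M` are trivial. -/
theorem eq_one_of_mem_centralizer (hHmax : ∀ L : Subgroup G, Cfsg.IsLocalSubgroup L → H ≤ L → L = H)
    (hF2 : 2 ≤ (Nat.card (Cfsg.fittingOf H)).primeFactors.card)
    (hM : M ≤ Cfsg.fittingOf H) (hCM : Cfsg.fittingOf H ⊓ Subgroup.centralizer (M : Set G) ≤ M)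
    (hR : Group.IsSolvable R)
    (hXR : H ⊓ Subgroup.centralizer (Cfsg.fittingOf H : Set G) ≤ Subgroup.normalizer (R : Set G))
    {y : G} (hyR : y ∈ R) (hyM : y ∈ Subgroup.centralizer (M : Set G))
    (hy : (orderOf y).Coprime (Nat.card (Cfsg.fittingOf H))) : y = 1 := by
  set F := Cfsg.fittingOf H with hF
  set X := H ⊓ Subgroup.centralizer (F : Set G) with hX
  obtain ⟨p, hp⟩ : (Nat.card F).primeFactors.Nonempty := by
    rw [← Finset.card_pos]; omega
  haveI : Fact p.Prime := ⟨Nat.prime_of_mem_primeFactors hp⟩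
  have hyH : y ∈ H := centralizer_pPart_le hHmax hM hCM (Nat.dvd_of_mem_primeFactors hp)
    (Subgroup.centralizer_le (pPart_le p M) hyM)
  have hyF : y ∈ Subgroup.centralizer (F : Set G) := by
    have hA : Subgroup.zpowers y ≤ Subgroup.normalizer (F : Set G) :=
      (Subgroup.zpowers_le.2 hyH).trans (le_normalizer_fittingOf H)
    refine Cfsg.Agent.H53.le_centralizer_of_centralizer_fixed_le F _ (fittingOf_nilpotent H) hA
      (by rw [Nat.card_zpowers]; exact hy) ?_ (Subgroup.mem_zpowers y)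
    have hMC : M ≤ F ⊓ Subgroup.centralizer (Subgroup.zpowers y : Set G) := by
      refine le_inf hM fun m hm => ?_
      rw [Subgroup.zpowers_eq_closure, Subgroup.centralizer_closure]
      exact Subgroup.mem_centralizer_singleton_iff.2 (hyM m hm)
    exact (le_trans (le_trans (inf_le_inf_left _ (Subgroup.centralizer_le hMC)) hCM) hMC)
  set Y := X ⊓ R with hY
  have hXY : X ≤ Subgroup.normalizer (Y : Set G) :=
    Cfsg.Agent.H20.le_normalizer_inf Subgroup.le_normalizer hXR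
  have hHX : H ≤ Subgroup.normalizer (X : Set G) :=
    Cfsg.Agent.H20.le_normalizer_inf Subgroup.le_normalizer
      (Cfsg.Agent.H20.le_normalizer_centralizer (le_normalizer_fittingOf H))
  haveI := Cfsg.Agent.H19.fitting_characteristic Y
  haveI := Cfsg.Agent.H19.fitting_characteristic X
  have h1 : Cfsg.fittingOf Y ≤ Cfsg.fittingOf X :=
    le_fittingOf (fittingOf_nilpotent Y) ((fittingOf_le Y).trans inf_le_left)
      (hXY.trans (Cfsg.Agent.H55.normalizer_le_normalizer_char Y (Cfsg.fittingSubgroup Y)))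
  have h2 : Cfsg.fittingOf X ≤ F :=
    le_fittingOf (fittingOf_nilpotent X) ((fittingOf_le X).trans inf_le_left)
      (hHX.trans (Cfsg.Agent.H55.normalizer_le_normalizer_char X (Cfsg.fittingSubgroup X)))
  haveI : Group.IsSolvable Y := by
    haveI := hR
    exact Group.isSolvable_of_isSolvable_injective
      (Subgroup.inclusion_injective (inf_le_right : Y ≤ R))
  have hyY : y ∈ Y := ⟨⟨hyH, hyF⟩, hyR⟩
  have h3 : (⟨y, hyY⟩ : Y) ∈ Cfsg.fittingSubgroup Y :=
    Cfsg.Agent.H19.centralizer_fitting_le fun f hf => Subtype.ext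
      (hyF (f : G) (h2 (h1 ⟨f, hf, rfl⟩)))
  have hyF' : y ∈ F := h2 (h1 ⟨_, h3, rfl⟩)
  have h4 : orderOf y ∣ Nat.card F := by
    rw [← Subgroup.orderOf_mk y hyF']; exact orderOf_dvd_natCard _
  exact orderOf_eq_one_iff.1 (Nat.eq_one_of_dvd_coprimes hy dvd_rfl h4)

/-- Invariant `q`-subgroups of `R`, `q` prime to `|F|`, meet `H` trivially. -/
theorem invariant_inf_eq_bot (hHmax : ∀ L : Subgroup G, Cfsg.IsLocalSubgroup L → H ≤ L → L = H)
    (hF2 : 2 ≤ (Nat.card (Cfsg.fittingOf H)).primeFactors.card)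
    (hM : M ≤ Cfsg.fittingOf H) (hCM : Cfsg.fittingOf H ⊓ Subgroup.centralizer (M : Set G) ≤ M)
    (hR : Group.IsSolvable R)
    (hXR : H ⊓ Subgroup.centralizer (Cfsg.fittingOf H : Set G) ≤ Subgroup.normalizer (R : Set G))
    {Q : Subgroup G} (hQR : Q ≤ R) (hMQ : M ≤ Subgroup.normalizer (Q : Set G))
    (hQ : (Nat.card Q).Coprime (Nat.card (Cfsg.fittingOf H))) : Q ⊓ H = ⊥ := by
  rw [eq_bot_iff]
  rintro y ⟨hyQ, hyH⟩
  refine Subgroup.mem_bot.2 (eq_one_of_mem_centralizer hHmax hF2 hM hCM hR hXR (hQR hyQ) ?_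
    (hQ.coprime_dvd_left (by rw [← Subgroup.orderOf_mk y hyQ]; exact orderOf_dvd_natCard _)))
  intro m hm
  have hwQ : y * m * y⁻¹ * m⁻¹ ∈ Q := by
    rw [show y * m * y⁻¹ * m⁻¹ = y * (m * y⁻¹ * m⁻¹) by group]
    exact Q.mul_mem hyQ ((Subgroup.mem_normalizer_iff.1 (hMQ hm) _).1 (Q.inv_mem hyQ))
  have hwF : y * m * y⁻¹ * m⁻¹ ∈ Cfsg.fittingOf H :=
    Subgroup.mul_mem _ ((Subgroup.mem_normalizer_iff.1 (le_normalizer_fittingOf H hyH) m).1 (hM hm))
      (Subgroup.inv_mem _ (hM hm))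
  have h1 : y * m * y⁻¹ * m⁻¹ = 1 := orderOf_eq_one_iff.1 (Nat.eq_one_of_dvd_coprimes hQ
    (by rw [← Subgroup.orderOf_mk _ hwQ]; exact orderOf_dvd_natCard _)
    (by rw [← Subgroup.orderOf_mk _ hwF]; exact orderOf_dvd_natCard _))
  rw [mul_inv_eq_one, mul_inv_eq_iff_eq_mul] at h1
  exact h1.symm

/-- Invariant `q`-subgroups of `R` lie in `O_{π(F)'}(R)`. -/
theorem invariant_le_piCoreOf (hHmax : ∀ L : Subgroup G, Cfsg.IsLocalSubgroup L → H ≤ L → L = H)
    (hF2 : 2 ≤ (Nat.card (Cfsg.fittingOf H)).primeFactors.card)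
    (hM : M ≤ Cfsg.fittingOf H) (hCM : Cfsg.fittingOf H ⊓ Subgroup.centralizer (M : Set G) ≤ M)
    (hR : Group.IsSolvable R) (hMR : M ≤ Subgroup.normalizer (R : Set G))
    (hXR : H ⊓ Subgroup.centralizer (Cfsg.fittingOf H : Set G) ≤ Subgroup.normalizer (R : Set G))
    {q : ℕ} [Fact q.Prime] (hq : ¬ q ∣ Nat.card (Cfsg.fittingOf H))
    {Q : Subgroup G} (hQR : Q ≤ R) (hQq : IsPGroup q Q) (hMQ : M ≤ Subgroup.normalizer (Q : Set G)) :
    Q ≤ Cfsg.piCoreOf (Cfsg.primesNotDvd (Nat.card (Cfsg.fittingOf H))) R := by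
  set F := Cfsg.fittingOf H with hF
  have hFn : Group.IsNilpotent F := fittingOf_nilpotent H
  have hMn : Group.IsNilpotent M := nilpotent_mono hM hFn
  have hQcop : (Nat.card Q).Coprime (Nat.card F) := by
    obtain ⟨k, hk⟩ := IsPGroup.iff_card.1 hQq
    rw [hk]
    exact ((Fact.out : q.Prime).coprime_iff_not_dvd.2 hq).pow_left k
  suffices key : ∀ p ∈ (Nat.card F).primeFactors, Q.subgroupOf R ≤ Cfsg.pPrimeCore p R by
    set D : Subgroup R := ⨅ p : (Nat.card F).primeFactors, Cfsg.pPrimeCore (p : ℕ) R with hD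
    haveI hDn : D.Normal := Subgroup.normal_iInf_normal fun p => Cfsg.Agent.H19.pPrimeCore_normal _ R
    have hDpi : Cfsg.Agent.H55.PiDvd (Cfsg.primesNotDvd (Nat.card F)) (Nat.card D) := by
      refine fun r hr hrd => ⟨hr, fun hrF => ?_⟩
      have hmem : r ∈ (Nat.card F).primeFactors := Nat.mem_primeFactors.2 ⟨hr, hrF, Nat.card_pos.ne'⟩
      exact hr.not_dvd_one ((Cfsg.Agent.H19.pPrimeCore_coprime (G := R) r).gcd_eq_one ▸
        Nat.dvd_gcd (hrd.trans (Subgroup.card_dvd_of_le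
          (iInf_le (fun p : (Nat.card F).primeFactors => Cfsg.pPrimeCore (p : ℕ) R) ⟨r, hmem⟩)))
          dvd_rfl)
    intro x hx
    exact ⟨⟨x, hQR hx⟩, Cfsg.Agent.H55.le_piCore hDn hDpi
      ((le_iInf (fun (p : (Nat.card F).primeFactors) => key (p : ℕ) p.2) : Q.subgroupOf R ≤ D) (show (⟨x, hQR hx⟩ : R) ∈ Q.subgroupOf R from hx)), rfl⟩
  intro p hp
  haveI : Fact p.Prime := ⟨Nat.prime_of_mem_primeFactors hp⟩
  have hpF : p ∣ Nat.card F := Nat.dvd_of_mem_primeFactors hp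
  obtain ⟨s, hs, hsp⟩ := Finset.exists_mem_ne (show 1 < (Nat.card F).primeFactors.card by omega) p
  haveI : Fact s.Prime := ⟨Nat.prime_of_mem_primeFactors hs⟩
  have hsF : s ∣ Nat.card F := Nat.dvd_of_mem_primeFactors hs
  -- `Q = [Q, M_s]`
  set Mp := pPart p M with hMp
  set Ms := pPart s M with hMs
  have hQH := invariant_inf_eq_bot hHmax hF2 hM hCM hR hXR hQR hMQ hQcop
  have hQs : ⁅Q, Ms⁆ = Q := by
    have h := Cfsg.Agent.H20.commutator_sup_centralizer (A := Ms) (K := Q)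
      ((pPart_le s M).trans hMQ)
      ((hQcop.coprime_dvd_right (Subgroup.card_dvd_of_le ((pPart_le s M).trans hM))).symm)
      (Or.inl (haveI := (pPart_isPGroup s M).isNilpotent; inferInstance))
    have h0 : Q ⊓ Subgroup.centralizer (Ms : Set G) = ⊥ :=
      le_bot_iff.1 (hQH ▸ inf_le_inf_left Q (centralizer_pPart_le hHmax hM hCM hsF))
    rwa [h0, sup_bot_eq] at h
  -- work in `L = R M`
  set L := R ⊔ M with hL
  haveI : Group.IsSolvable L := isSolvable_sup_of_le_normalizer hR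
    (haveI := hMn; inferInstance) hMR
  have hRL : R ≤ L := le_sup_left
  have hML : M ≤ L := le_sup_right
  have hQL : Q ≤ L := hQR.trans hRL
  set N := Cfsg.pPrimeCore p L with hN
  haveI hNn : N.Normal := Cfsg.Agent.H19.pPrimeCore_normal p L
  set π := QuotientGroup.mk' N with hπ
  set T := Cfsg.pCore p (L ⧸ N) with hT
  haveI hTn : T.Normal := Cfsg.Agent.H19.pCore_normal p _
  have hTp : IsPGroup p T := Cfsg.Agent.H19.pCore_isPGroup p
  have hnT : ∀ U : Subgroup (L ⧸ N), U ≤ Subgroup.normalizer (T : Set (L ⧸ N)) := fun U => by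
    rw [Subgroup.normalizer_eq_top T]; exact le_top
  have hcardsub : ∀ U : Subgroup G, U ≤ L → Nat.card (U.subgroupOf L) = Nat.card U := fun U hU =>
    Nat.card_congr (Subgroup.subgroupOfEquivOfLe hU).toEquiv
  have hMpL : Mp ≤ L := (pPart_le p M).trans hML
  have hMsL : Ms ≤ L := (pPart_le s M).trans hML
  have hsT : (Ms.subgroupOf L).map π ≤ Subgroup.centralizer (T : Set (L ⧸ N)) := by
    refine Cfsg.Agent.H20.p_times_q (P := (Mp.subgroupOf L).map π)
      (((pPart_isPGroup p M).comap_of_injective L.subtype L.subtype_injective).map π) ?_ hTp ?_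
      (hnT _) (hnT _) ?_
    · obtain ⟨k, hk⟩ := IsPGroup.iff_card.1
        (((pPart_isPGroup s M).comap_of_injective L.subtype L.subtype_injective).map π)
      have hk' : Nat.card ((Ms.subgroupOf L).map π) = s ^ k := hk
      rw [hk']
      exact ((Nat.coprime_primes Fact.out Fact.out).2 hsp).pow_left k
    · rintro _ ⟨a, ha, rfl⟩ _ ⟨b, hb, rfl⟩
      rw [← map_mul, ← map_mul]
      exact congrArg π (Subtype.ext (commute_pPart hsp hMn hb ha).eq)
    · rintro t ⟨htT, htC⟩ _ ⟨m, hm, rfl⟩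
      obtain ⟨u, rfl⟩ := QuotientGroup.mk'_surjective N t
      have hcop : (Nat.card (Mp.subgroupOf L)).Coprime (Nat.card N) := by
        obtain ⟨k, hk⟩ := IsPGroup.iff_card.1 (pPart_isPGroup p M)
        rw [hcardsub Mp hMpL, hk]
        exact (Cfsg.Agent.H19.pPrimeCore_coprime (G := L) p).symm.pow_left k
      obtain ⟨n, hn, hc⟩ := Cfsg.Agent.H20.exists_mul_mem_centralizer (A := Mp.subgroupOf L)
        (N := N) (k := u) (by rw [Subgroup.normalizer_eq_top N]; exact le_top) hcop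
        (Or.inl inferInstance) (by
          intro a ha
          refine (QuotientGroup.eq_one_iff _).1 ?_
          show π (u⁻¹ * (a * u * a⁻¹)) = 1
          rw [map_mul, map_mul, map_mul, map_inv, map_inv, htC (π a) ⟨a, ha, rfl⟩,
            mul_inv_cancel_right, inv_mul_cancel])
      set c := u * n with hc'
      have hcu : π c = π u := by
        rw [map_mul, show π n = 1 from (QuotientGroup.eq_one_iff n).2 hn, mul_one]
      have hcH : (c : G) ∈ H := centralizer_pPart_le hHmax hM hCM hpF fun a ha =>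
        congrArg Subtype.val (hc ⟨a, hMpL ha⟩ ha)
      have hmFs : (m : G) ∈ pPart s F :=
        le_pPart hFn (pPart_isPGroup s M) ((pPart_le s M).trans hM) hm
      have hw : (c : G) * m * (c : G)⁻¹ * (m : G)⁻¹ ∈ pPart s F :=
        Subgroup.mul_mem _ ((Subgroup.mem_normalizer_iff.1
          (((le_normalizer_fittingOf H).trans (normalizer_le_normalizer_pPart s F)) hcH) _).1 hmFs)
          (Subgroup.inv_mem _ hmFs)
      obtain ⟨i, hi⟩ := (pPart_isPGroup s F) ⟨_, hw⟩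
      have hwi : (c * m * c⁻¹ * m⁻¹ : L) ^ s ^ i = 1 :=
        Subtype.ext (by simpa using congrArg Subtype.val hi)
      have hwT : π (c * m * c⁻¹ * m⁻¹) ∈ T := by
        rw [map_mul, map_mul, map_mul, map_inv, map_inv, hcu,
          show π u * π m * (π u)⁻¹ * (π m)⁻¹ = π u * (π m * (π u)⁻¹ * (π m)⁻¹) by group]
        exact T.mul_mem htT (hTn.conj_mem _ (T.inv_mem htT) _)
      obtain ⟨j, hj⟩ := hTp ⟨_, hwT⟩
      have h1 : π (c * m * c⁻¹ * m⁻¹) = 1 := orderOf_eq_one_iff.1 (Nat.eq_one_of_dvd_coprimes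
        (((Nat.coprime_primes Fact.out Fact.out).2 hsp).pow i j)
        (orderOf_dvd_of_pow_eq_one (by rw [← map_pow, hwi, map_one]))
        (orderOf_dvd_of_pow_eq_one (by simpa using congrArg Subtype.val hj)))
      rw [map_mul, map_mul, map_mul, map_inv, map_inv, hcu, mul_inv_eq_one,
        mul_inv_eq_iff_eq_mul] at h1
      exact h1.symm
  have hCT : Subgroup.centralizer (T : Set (L ⧸ N)) ≤ T :=
    Cfsg.Agent.H19.centralizer_pCore_le (Cfsg.Agent.H19.pPrimeCore_quotient_pPrimeCore p)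
  haveI : (Subgroup.centralizer (T : Set (L ⧸ N))).Normal := inferInstance
  -- the image of `Q` centralizes `T`
  have hQT : ⁅Q, Ms⁆ ≤ (((Subgroup.centralizer (T : Set (L ⧸ N))).comap π).map L.subtype) := by
    rw [Subgroup.commutator_le]
    intro a ha b hb
    refine ⟨⁅(⟨a, hQL ha⟩ : L), (⟨b, hMsL hb⟩ : L)⁆, ?_, by rw [map_commutatorElement]; rfl⟩
    have hbC : π ⟨b, hMsL hb⟩ ∈ Subgroup.centralizer (T : Set (L ⧸ N)) :=
      hsT ⟨⟨b, hMsL hb⟩, hb, rfl⟩
    show π ⁅_, _⁆ ∈ Subgroup.centralizer (T : Set (L ⧸ N))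
    rw [map_commutatorElement, commutatorElement_def]
    exact Subgroup.mul_mem _ ((inferInstance : (Subgroup.centralizer (T : Set (L ⧸ N))).Normal).conj_mem
      _ hbC _) (Subgroup.inv_mem _ hbC)
  rw [hQs] at hQT
  have hQN : Q ≤ N.map L.subtype := by
    intro x hx
    obtain ⟨x', hx', rfl⟩ := hQT hx
    refine ⟨x', (QuotientGroup.eq_one_iff x').1 ?_, rfl⟩
    obtain ⟨j, hj⟩ := hTp ⟨_, hCT hx'⟩
    obtain ⟨i, hi⟩ := hQq ⟨_, hx⟩
    have hx'i : x' ^ q ^ i = 1 := Subtype.ext (by simpa using congrArg Subtype.val hi)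
    exact orderOf_eq_one_iff.1 (Nat.eq_one_of_dvd_coprimes
      (((Nat.coprime_primes Fact.out Fact.out).2 (fun e : q = p => hq (e ▸ hpF))).pow i j)
      (orderOf_dvd_of_pow_eq_one (show π x' ^ q ^ i = 1 by rw [← map_pow, hx'i, map_one]))
      (orderOf_dvd_of_pow_eq_one (show π x' ^ p ^ j = 1 by simpa using congrArg Subtype.val hj)))
  -- back to `R`
  haveI hNR : ((N.map L.subtype).subgroupOf R).Normal := by
    rw [Subgroup.normal_subgroupOf_iff_le_normalizer_inf]
    refine Cfsg.Agent.H20.le_normalizer_inf ?_ Subgroup.le_normalizer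
    refine hRL.trans ?_
    have h := Subgroup.le_normalizer_map (H := N) L.subtype
    rwa [Subgroup.normalizer_eq_top N, ← MonoidHom.range_eq_map, Subgroup.range_subtype] at h
  refine le_trans (Subgroup.comap_mono hQN) (Cfsg.Agent.H19.le_pPrimeCore hNR ?_)
  refine (Cfsg.Agent.H19.pPrimeCore_coprime (G := L) p).coprime_dvd_left ?_
  refine (Dvd.dvd.trans ?_ (Subgroup.card_map_of_injective L.subtype_injective).dvd)
  rw [← Subgroup.card_map_of_injective R.subtype_injective, Subgroup.map_comap_eq]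
  exact Subgroup.card_dvd_of_le inf_le_right

/-- Unique maximal invariant `q`-subgroup. -/
theorem existsUnique_maxInv (hHmax : ∀ L : Subgroup G, Cfsg.IsLocalSubgroup L → H ≤ L → L = H)
    (hF2 : 2 ≤ (Nat.card (Cfsg.fittingOf H)).primeFactors.card)
    (hM : M ≤ Cfsg.fittingOf H) (hCM : Cfsg.fittingOf H ⊓ Subgroup.centralizer (M : Set G) ≤ M)
    (hR : Group.IsSolvable R) (hMR : M ≤ Subgroup.normalizer (R : Set G))
    (hXR : H ⊓ Subgroup.centralizer (Cfsg.fittingOf H : Set G) ≤ Subgroup.normalizer (R : Set G))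
    {q : ℕ} [Fact q.Prime] (hq : ¬ q ∣ Nat.card (Cfsg.fittingOf H)) :
    ∃! Q : Subgroup G, Q ∈ Cfsg.maxInvSubgroups R M {q} ∧
      (∀ Q' : Subgroup G, Q' ∈ Cfsg.maxInvSubgroups R M {q} →
        Q' ≤ Cfsg.piCoreOf (Cfsg.primesNotDvd (Nat.card (Cfsg.fittingOf H))) R ∧
        ¬ q ∣ Q'.relIndex (Cfsg.piCoreOf (Cfsg.primesNotDvd (Nat.card (Cfsg.fittingOf H))) R)) := by
  set F := Cfsg.fittingOf H with hF
  set K := Cfsg.piCoreOf (Cfsg.primesNotDvd (Nat.card F)) R with hK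
  have hKR : K ≤ R := Cfsg.Agent.H55.piCoreOf_le _ _
  have hMK : M ≤ Subgroup.normalizer (K : Set G) :=
    hMR.trans (Cfsg.Agent.H55.normalizer_le_normalizer_piCoreOf _ _)
  have hKF : (Nat.card K).Coprime (Nat.card F) :=
    Cfsg.Agent.H55.piDvd_primesNotDvd_iff.1 (Cfsg.Agent.H55.piCoreOf_piDvd _ _)
  have hcop : (Nat.card M).Coprime (Nat.card K) :=
    (hKF.coprime_dvd_right (Subgroup.card_dvd_of_le hM)).symm
  have hsolv : Group.IsSolvable M ∨ Group.IsSolvable K :=
    Or.inr (Cfsg.Agent.H20.isSolvable_of_le hKR hR)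
  have hfix : K ⊓ Subgroup.centralizer (M : Set G) = ⊥ := by
    rw [eq_bot_iff]
    rintro y ⟨hyK, hyM⟩
    exact Subgroup.mem_bot.2 (eq_one_of_mem_centralizer hHmax hF2 hM hCM hR hXR (hKR hyK) hyM
      (hKF.coprime_dvd_left (by rw [← Subgroup.orderOf_mk y hyK]; exact orderOf_dvd_natCard _)))
  obtain ⟨P, hPK, hMP, hPq, hPc⟩ :=
    Cfsg.Agent.H20.exists_invariant_sylow_subgroup hMK hcop hsolv q
  have hle : ∀ Y ∈ Cfsg.invSubgroups R M {q}, Y ≤ P := by
    rintro Y ⟨hYR, hYpi, hMY⟩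
    have hYq : IsPGroup q Y := Cfsg.Agent.H55.piDvd_singleton_iff.1 hYpi
    obtain ⟨S, hYS, hMS⟩ := Cfsg.Agent.H20.exists_invariant_sylow_ge hMK hcop hsolv q
      (invariant_le_piCoreOf hHmax hF2 hM hCM hR hMR hXR hq hYR hYq hMY) hYq hMY
    obtain ⟨c, hc, hcS⟩ := Cfsg.Agent.H20.invariant_sylow_subgroup_conj hMK hcop hsolv
      (Subgroup.map_subtype_le (S : Subgroup K)) hPK (Cfsg.Agent.H20.card_map_sylow S) hPc hMS hMP
    rw [hfix, Subgroup.mem_bot] at hc
    rw [hc, map_one, one_smul] at hcS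
    exact hcS ▸ hYS
  have hPmem : P ∈ Cfsg.invSubgroups R M {q} :=
    ⟨hPK.trans hKR, Cfsg.Agent.H55.piDvd_singleton_iff.2 hPq, hMP⟩
  have hPmax : P ∈ Cfsg.maxInvSubgroups R M {q} :=
    ⟨hPmem, fun Y hY h => le_antisymm (hle Y hY) h⟩
  have huniq : ∀ Q' ∈ Cfsg.maxInvSubgroups R M {q}, Q' = P := fun Q' hQ' =>
    (hQ'.2 P hPmem (hle Q' hQ'.1)).symm
  refine ⟨P, ⟨hPmax, fun Q' hQ' => ?_⟩, fun Q' hQ' => huniq Q' hQ'.1⟩
  rw [huniq Q' hQ']
  refine ⟨hPK, ?_⟩
  obtain ⟨S, hS⟩ := Cfsg.Agent.H20.exists_sylow_map_eq hPK hPc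
  rw [← hS, Subgroup.relIndex, Subgroup.subgroupOf,
    Subgroup.comap_map_eq_self_of_injective K.subtype_injective]
  exact S.not_dvd_index

end Cfsg.Agent.H54
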