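import Mathlib
import Cfsg.Prelude.Def_OddOrderLocal

/-!
The Puig series of a finite group and of a subgroup (computed inside the ambient group).
-/

set_option autoImplicit false
set_option linter.style.haveILetI false

namespace Cfsg.Agent.H54

variable {G : Type*} [Group G]

/-- `L_H(X)` inside the ambient group: generated by the abelian subgroups of `H` normalized by
`X`. -/
def puigStepIn (H X : Subgroup G) : Subgroup G :=
  sSup {A : Subgroup G | A ≤ H ∧ IsMulCommutative A ∧ X ≤ Subgroup.normalizer (A : Set G)}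

/-- The Puig series of the subgroup `H`, inside the ambient group. -/
def puigSeqIn (H : Subgroup G) : ℕ → Subgroup G
  | 0 => ⊥
  | n + 1 => puigStepIn H (puigSeqIn H n)

theorem puigStepIn_le (H X : Subgroup G) : puigStepIn H X ≤ H := sSup_le fun _ h => h.1

theorem puigSeqIn_le (H : Subgroup G) : ∀ n, puigSeqIn H n ≤ H
  | 0 => bot_le
  | _ + 1 => puigStepIn_le _ _

/-- An abelian subgroup of `H` normalized by `X` lies in `L_H(X)`. -/
theorem le_puigStepIn {H X A : Subgroup G} (hA : A ≤ H) (hc : IsMulCommutative A)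
    (hX : X ≤ Subgroup.normalizer (A : Set G)) : A ≤ puigStepIn H X :=
  le_sSup ⟨hA, hc, hX⟩

/-- `L_H(X)` is antitone in `X` and monotone in `H`. -/
theorem puigStepIn_mono {H H' X X' : Subgroup G} (hH : H ≤ H') (hX : X' ≤ X) :
    puigStepIn H X ≤ puigStepIn H' X' :=
  sSup_le_sSup fun _ h => ⟨h.1.trans hH, h.2.1, hX.trans h.2.2⟩

theorem puigStepIn_bot (H : Subgroup G) : puigStepIn H ⊥ = H := by
  refine le_antisymm (puigStepIn_le _ _) fun x hx => ?_
  have h : Subgroup.zpowers x ≤ puigStepIn H ⊥ :=
    le_puigStepIn (Subgroup.zpowers_le.2 hx) inferInstance bot_le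
  exact h (Subgroup.mem_zpowers x)

theorem puigSeqIn_one (H : Subgroup G) : puigSeqIn H 1 = H := puigStepIn_bot H

/-- Even terms increase. -/
theorem puigSeqIn_even_le_succ (H : Subgroup G) : ∀ n,
    puigSeqIn H (2 * n) ≤ puigSeqIn H (2 * n + 2)
  | 0 => bot_le
  | n + 1 => by
    have := puigSeqIn_even_le_succ H n
    exact puigStepIn_mono le_rfl (puigStepIn_mono le_rfl this)

theorem puigSeqIn_even_monotone (H : Subgroup G) : Monotone fun n => puigSeqIn H (2 * n) :=
  monotone_nat_of_le_succ fun n => puigSeqIn_even_le_succ H n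

/-- Odd terms decrease. -/
theorem puigSeqIn_odd_antitone (H : Subgroup G) : Antitone fun n => puigSeqIn H (2 * n + 1) :=
  fun _ _ h => puigStepIn_mono le_rfl (puigSeqIn_even_monotone H h)

/-- Each even term lies below each odd term. -/
theorem puigSeqIn_even_le_odd (H : Subgroup G) (n m : ℕ) :
    puigSeqIn H (2 * n) ≤ puigSeqIn H (2 * m + 1) := by
  have key : ∀ j, puigSeqIn H (2 * j) ≤ puigSeqIn H (2 * j + 1) := by
    intro j
    induction j with
    | zero => exact bot_le
    | succ j ih =>
      show puigStepIn H (puigSeqIn H (2 * j + 1)) ≤ puigStepIn H (puigSeqIn H (2 * j + 2))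
      refine puigStepIn_mono le_rfl ?_
      show puigStepIn H (puigSeqIn H (2 * j + 1)) ≤ puigStepIn H (puigSeqIn H (2 * j))
      exact puigStepIn_mono le_rfl ih
  exact (puigSeqIn_even_monotone H (le_max_left n m)).trans
    ((key _).trans (puigSeqIn_odd_antitone H (le_max_right n m)))

/-- `L_*(H)` inside the ambient group. -/
def puigLowerIn (H : Subgroup G) : Subgroup G := ⨆ n : ℕ, puigSeqIn H (2 * n)

/-- `L(H)` inside the ambient group. -/
def puigUpperIn (H : Subgroup G) : Subgroup G := ⨅ n : ℕ, puigSeqIn H (2 * n + 1)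

theorem puigUpperIn_le_seq (H : Subgroup G) (n : ℕ) :
    puigUpperIn H ≤ puigSeqIn H (2 * n + 1) := iInf_le _ n

theorem puigUpperIn_le (H : Subgroup G) : puigUpperIn H ≤ H :=
  (puigUpperIn_le_seq H 0).trans (puigSeqIn_le _ _)

theorem seq_le_puigLowerIn (H : Subgroup G) (n : ℕ) : puigSeqIn H (2 * n) ≤ puigLowerIn H :=
  le_iSup (fun n => puigSeqIn H (2 * n)) n

theorem puigLowerIn_le_puigUpperIn (H : Subgroup G) : puigLowerIn H ≤ puigUpperIn H :=
  iSup_le fun n => le_iInf fun m => puigSeqIn_even_le_odd H n m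

/-- Both halves of the series stabilize. -/
theorem puigSeqIn_stabilizes [Finite G] (H : Subgroup G) :
    ∃ k, ∀ n, k ≤ n → puigSeqIn H (2 * n) = puigLowerIn H ∧
      puigSeqIn H (2 * n + 1) = puigUpperIn H := by
  obtain ⟨k, hk⟩ := (wellFoundedGT_iff_monotone_chain_condition (α := Subgroup G)).1 inferInstance
    ⟨_, puigSeqIn_even_monotone H⟩
  have hk' : ∀ n, k ≤ n → puigSeqIn H (2 * n) = puigSeqIn H (2 * k) := fun n hn => (hk n hn).symm
  refine ⟨k, fun n hn => ⟨le_antisymm (seq_le_puigLowerIn H n) (iSup_le fun m => ?_),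
    le_antisymm (le_iInf fun m => ?_) (puigUpperIn_le_seq H n)⟩⟩
  · rcases le_total m n with h | h
    · exact puigSeqIn_even_monotone H h
    · rw [hk' n hn, hk' m (hn.trans h)]
  · rcases le_total m n with h | h
    · exact puigSeqIn_odd_antitone H h
    · show puigStepIn H (puigSeqIn H (2 * n)) ≤ puigStepIn H (puigSeqIn H (2 * m))
      rw [hk' n hn, hk' m (hn.trans h)]

theorem puigStepIn_lower [Finite G] (H : Subgroup G) :
    puigStepIn H (puigLowerIn H) = puigUpperIn H := by
  obtain ⟨k, hk⟩ := puigSeqIn_stabilizes H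
  rw [← (hk k le_rfl).1, ← (hk k le_rfl).2]; rfl

theorem puigStepIn_upper [Finite G] (H : Subgroup G) :
    puigStepIn H (puigUpperIn H) = puigLowerIn H := by
  obtain ⟨k, hk⟩ := puigSeqIn_stabilizes H
  rw [← (hk k le_rfl).2, ← (hk (k + 1) (by omega)).1]; rfl

/-! ### Comparison with the definition for the group itself -/

theorem puigStep_eq {K : Type*} [Group K] (f : K →* G) (hf : Function.Injective f)
    (X : Subgroup K) : (Cfsg.puigStep X).map f = puigStepIn f.range (X.map f) := by
  refine le_antisymm ?_ ?_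
  · rw [Cfsg.puigStep, Subgroup.map_le_iff_le_comap]
    refine sSup_le fun A hA => ?_
    rw [← Subgroup.map_le_iff_le_comap]
    haveI := hA.1
    refine le_puigStepIn (Subgroup.map_le_range f A) inferInstance ?_
    exact (Subgroup.map_mono hA.2).trans (Subgroup.le_normalizer_map f)
  · refine sSup_le fun B hB => ?_
    haveI := hB.2.1
    rw [← Subgroup.map_comap_eq_self hB.1]
    refine Subgroup.map_mono (le_sSup ⟨?_, fun x hx => ?_⟩)
    · exact ⟨⟨fun a b => Subtype.ext (hf (by
        simpa using congrArg Subtype.val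
          (mul_comm' (⟨f a, a.2⟩ : B) ⟨f b, b.2⟩)))⟩⟩
    · exact Subgroup.le_normalizer_comap f (hB.2.2 (Subgroup.mem_map_of_mem f hx))

theorem puigSeq_eq {K : Type*} [Group K] (f : K →* G) (hf : Function.Injective f) :
    ∀ n, (Cfsg.puigSeq K n).map f = puigSeqIn f.range n
  | 0 => Subgroup.map_bot f
  | n + 1 => by
    show (Cfsg.puigStep (Cfsg.puigSeq K n)).map f = _
    rw [puigStep_eq f hf, puigSeq_eq f hf n]; rfl

theorem puigLower_eq {K : Type*} [Group K] (f : K →* G) (hf : Function.Injective f) :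
    (Cfsg.puigLower K).map f = puigLowerIn f.range := by
  simp only [Cfsg.puigLower, Subgroup.map_iSup, puigSeq_eq f hf, puigLowerIn]

theorem puigSubgroup_eq {K : Type*} [Group K] (f : K →* G) (hf : Function.Injective f) :
    (Cfsg.puigSubgroup K).map f = puigUpperIn f.range := by
  simp only [Cfsg.puigSubgroup, Subgroup.map_iInf _ hf, puigSeq_eq f hf, puigUpperIn]

theorem puigLower_subgroup_eq (H : Subgroup G) :
    (Cfsg.puigLower H).map H.subtype = puigLowerIn H := by
  rw [puigLower_eq _ H.subtype_injective, Subgroup.range_subtype]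

theorem puigSubgroup_subgroup_eq (H : Subgroup G) :
    (Cfsg.puigSubgroup H).map H.subtype = puigUpperIn H := by
  rw [puigSubgroup_eq _ H.subtype_injective, Subgroup.range_subtype]

theorem puigSeq_top (n : ℕ) : Cfsg.puigSeq G n = puigSeqIn ⊤ n := by
  have := puigSeq_eq (MonoidHom.id G) Function.injective_id n
  rwa [Subgroup.map_id, MonoidHom.range_eq_top.2 Function.surjective_id] at this

theorem puigLower_top : Cfsg.puigLower G = puigLowerIn ⊤ := by
  simp only [Cfsg.puigLower, puigSeq_top, puigLowerIn]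

theorem puigSubgroup_top : Cfsg.puigSubgroup G = puigUpperIn ⊤ := by
  simp only [Cfsg.puigSubgroup, puigSeq_top, puigUpperIn]

theorem puigStep_top (X : Subgroup G) : Cfsg.puigStep X = puigStepIn ⊤ X := by
  have := puigStep_eq (MonoidHom.id G) Function.injective_id X
  rwa [Subgroup.map_id, Subgroup.map_id, MonoidHom.range_eq_top.2 Function.surjective_id] at this

/-! ### Equivariance -/

theorem puigStepIn_map {G' : Type*} [Group G'] (e : G ≃* G') (H X : Subgroup G) :
    (puigStepIn H X).map e.toMonoidHom = puigStepIn (H.map e.toMonoidHom) (X.map e.toMonoidHom) := by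
  refine le_antisymm ?_ ?_
  · rw [Subgroup.map_le_iff_le_comap]
    refine sSup_le fun A hA => ?_
    rw [← Subgroup.map_le_iff_le_comap]
    haveI := hA.2.1
    exact le_puigStepIn (Subgroup.map_mono hA.1) inferInstance
      ((Subgroup.map_mono hA.2.2).trans (Subgroup.le_normalizer_map e.toMonoidHom))
  · refine sSup_le fun B hB => ?_
    haveI := hB.2.1
    have hs : ∀ K : Subgroup G', (K.map e.symm.toMonoidHom).map e.toMonoidHom = K := fun K => by
      rw [Subgroup.map_map]; simp
    have hs' : ∀ K : Subgroup G, (K.map e.toMonoidHom).map e.symm.toMonoidHom = K := fun K => by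
      rw [Subgroup.map_map]; simp
    rw [← hs B]
    refine Subgroup.map_mono (le_puigStepIn ?_ inferInstance ?_)
    · rw [← hs' H]; exact Subgroup.map_mono hB.1
    · rw [← hs' X]; exact (Subgroup.map_mono hB.2.2).trans (Subgroup.le_normalizer_map _)

theorem puigSeqIn_map {G' : Type*} [Group G'] (e : G ≃* G') (H : Subgroup G) :
    ∀ n, (puigSeqIn H n).map e.toMonoidHom = puigSeqIn (H.map e.toMonoidHom) n
  | 0 => Subgroup.map_bot _
  | n + 1 => by
    show (puigStepIn H (puigSeqIn H n)).map _ = _
    rw [puigStepIn_map e, puigSeqIn_map e H n]; rfl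

theorem puigLowerIn_map {G' : Type*} [Group G'] (e : G ≃* G') (H : Subgroup G) :
    (puigLowerIn H).map e.toMonoidHom = puigLowerIn (H.map e.toMonoidHom) := by
  simp only [puigLowerIn, Subgroup.map_iSup, puigSeqIn_map]

theorem puigUpperIn_map {G' : Type*} [Group G'] (e : G ≃* G') (H : Subgroup G) :
    (puigUpperIn H).map e.toMonoidHom = puigUpperIn (H.map e.toMonoidHom) := by
  simp only [puigUpperIn, Subgroup.map_iInf e.toMonoidHom (by exact e.injective), puigSeqIn_map]

/-- Whatever normalizes `H` normalizes its Puig series. -/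
theorem normalizer_le_puigSeqIn (H : Subgroup G) (n : ℕ) :
    Subgroup.normalizer (H : Set G) ≤ Subgroup.normalizer (puigSeqIn H n : Set G) := by
  intro g hg
  rw [Subgroup.mem_normalizer_iff_map_conj_eq] at hg ⊢
  exact (puigSeqIn_map (MulAut.conj g) H n).trans (congrArg (puigSeqIn · n) hg)

/-- Whatever normalizes `H` normalizes `L(H)`. -/
theorem normalizer_le_puigUpperIn (H : Subgroup G) :
    Subgroup.normalizer (H : Set G) ≤ Subgroup.normalizer (puigUpperIn H : Set G) := by
  intro g hg
  rw [Subgroup.mem_normalizer_iff_map_conj_eq] at hg ⊢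
  exact (puigUpperIn_map (MulAut.conj g) H).trans (congrArg puigUpperIn hg)

/-- Whatever normalizes `H` normalizes `L_*(H)`. -/
theorem normalizer_le_puigLowerIn (H : Subgroup G) :
    Subgroup.normalizer (H : Set G) ≤ Subgroup.normalizer (puigLowerIn H : Set G) := by
  intro g hg
  rw [Subgroup.mem_normalizer_iff_map_conj_eq] at hg ⊢
  exact (puigLowerIn_map (MulAut.conj g) H).trans (congrArg puigLowerIn hg)

end Cfsg.Agent.H54
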