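import Mathlib
import Cfsg.Agent.H54.Puig
import Cfsg.Agent.H19.Misc

/-!
Puig subgroups of `p`-groups contain their centralizers.
-/

set_option autoImplicit false
set_option linter.style.haveILetI false

namespace Cfsg.Agent.H54

variable {G : Type*} [Group G]

/-- A nilpotent finite group has an abelian normal subgroup equal to its centralizer. -/
theorem exists_selfcentralizing_abelian_normal (R : Type*) [Group R] [Finite R]
    [Group.IsNilpotent R] :
    ∃ A : Subgroup R, A.Normal ∧ IsMulCommutative A ∧ Subgroup.centralizer (A : Set R) = A := by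
  have hne : {A : Subgroup R | A.Normal ∧ IsMulCommutative A}.Nonempty :=
    ⟨⊥, inferInstance, inferInstance⟩
  obtain ⟨A, hA, hmax⟩ := Set.Finite.exists_maximal (Set.toFinite _) hne
  haveI := hA.1
  haveI := hA.2
  exact ⟨A, hA.1, hA.2, Cfsg.Agent.H19.centralizer_eq_of_max_abelian_normal A
    fun M hM hMc hle => le_antisymm (hmax ⟨hM, hMc⟩ hle) hle⟩

/-- Positive terms of the Puig series of a nilpotent subgroup contain an abelian subgroup which
is self-centralizing in it. -/
theorem exists_selfcentralizing_le_puigSeqIn [Finite G] (H : Subgroup G) (hH : Group.IsNilpotent H) :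
    ∃ A : Subgroup G, A ≤ H ∧ IsMulCommutative A ∧ H ≤ Subgroup.normalizer (A : Set G) ∧
      H ⊓ Subgroup.centralizer (A : Set G) ≤ A ∧ ∀ n, A ≤ puigSeqIn H (n + 1) := by
  haveI := hH
  obtain ⟨A, hAn, hAc, hcent⟩ := exists_selfcentralizing_abelian_normal H
  haveI := hAc
  haveI := hAn
  have hle : A.map H.subtype ≤ H := Subgroup.map_subtype_le A
  have hnorm : H ≤ Subgroup.normalizer ((A.map H.subtype : Subgroup G) : Set G) := by
    have := Subgroup.le_normalizer_map (H := A) H.subtype
    rwa [Subgroup.normalizer_eq_top A, ← MonoidHom.range_eq_map, Subgroup.range_subtype] at this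
  refine ⟨A.map H.subtype, hle, inferInstance, hnorm, ?_, fun n => ?_⟩
  · rintro x ⟨hxH, hxC⟩
    refine ⟨⟨x, hxH⟩, ?_, rfl⟩
    rw [← hcent]
    intro a ha
    exact Subtype.ext (hxC a (Subgroup.mem_map_of_mem H.subtype ha))
  · exact le_puigStepIn hle inferInstance ((puigSeqIn_le H n).trans hnorm)

/-- Positive terms of the Puig series of a nilpotent subgroup contain their centralizers in it. -/
theorem inf_centralizer_puigSeqIn_le [Finite G] (H : Subgroup G) (hH : Group.IsNilpotent H) {n : ℕ}
    (hn : 0 < n) :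
    H ⊓ Subgroup.centralizer (puigSeqIn H n : Set G) ≤ puigSeqIn H n := by
  obtain ⟨A, _, _, _, hc, hA⟩ := exists_selfcentralizing_le_puigSeqIn H hH
  obtain ⟨m, rfl⟩ := Nat.exists_eq_succ_of_ne_zero hn.ne'
  exact ((inf_le_inf_left _ (Subgroup.centralizer_le (hA m))).trans hc).trans (hA m)

/-- `L_*(H)` contains its centralizer in `H`. -/
theorem inf_centralizer_puigLowerIn_le [Finite G] (H : Subgroup G) (hH : Group.IsNilpotent H) :
    H ⊓ Subgroup.centralizer (puigLowerIn H : Set G) ≤ puigLowerIn H :=
  (inf_le_inf_left _ (Subgroup.centralizer_le (seq_le_puigLowerIn H 1))).trans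
    ((inf_centralizer_puigSeqIn_le H hH (by norm_num)).trans (seq_le_puigLowerIn H 1))

/-- `L(H)` contains its centralizer in `H`. -/
theorem inf_centralizer_puigUpperIn_le [Finite G] (H : Subgroup G) (hH : Group.IsNilpotent H) :
    H ⊓ Subgroup.centralizer (puigUpperIn H : Set G) ≤ puigUpperIn H := by
  obtain ⟨k, hk⟩ := puigSeqIn_stabilizes H
  rw [← (hk k le_rfl).2]
  exact inf_centralizer_puigSeqIn_le H hH (by omega)

end Cfsg.Agent.H54
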