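import Mathlib
import Cfsg.Agent.H54.PuigPGroup
import Cfsg.Agent.H54.PStable
import Cfsg.Agent.H44.TISylow
import Cfsg.Agent.H53.PConstrained

/-!
Puig's theorem for solvable groups of odd order.
-/

set_option autoImplicit false
set_option linter.style.haveILetI false

namespace Cfsg.Agent.H54

variable {G : Type*} [Group G]

/-- `Z(L(H))` inside the ambient group. -/
def puigCenterIn (H : Subgroup G) : Subgroup G :=
  puigUpperIn H ⊓ Subgroup.centralizer (puigUpperIn H : Set G)

/-- The double image of a centre, inside the ambient group. -/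
theorem map_center_eq_inf_centralizer (S : Subgroup G) (K : Subgroup S) :
    ((Subgroup.center K).map K.subtype).map S.subtype =
      K.map S.subtype ⊓ Subgroup.centralizer ((K.map S.subtype : Subgroup G) : Set G) := by
  ext x
  constructor
  · rintro ⟨_, ⟨z, hz, rfl⟩, rfl⟩
    refine ⟨⟨z, z.2, rfl⟩, ?_⟩
    rintro _ ⟨k, hk, rfl⟩
    exact congrArg (fun t : K => ((t : S) : G)) (Subgroup.mem_center_iff.1 hz ⟨k, hk⟩)
  · rintro ⟨⟨k, hk, rfl⟩, hc⟩
    refine ⟨k, ⟨⟨k, hk⟩, Subgroup.mem_center_iff.2 fun l => ?_, rfl⟩, rfl⟩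
    exact Subtype.ext (Subtype.ext (hc ((l : S) : G) ⟨l, l.2, rfl⟩))

theorem puigCenter_eq (S : Subgroup G) :
    ((Subgroup.center ↥(Cfsg.puigSubgroup ↥S)).map (Cfsg.puigSubgroup ↥S).subtype).map S.subtype =
      puigCenterIn S := by
  rw [map_center_eq_inf_centralizer, puigSubgroup_subgroup_eq]
  rfl

/-- Whatever normalizes `H` normalizes `Z(L(H))`. -/
theorem normalizer_le_puigCenterIn (H : Subgroup G) :
    Subgroup.normalizer (H : Set G) ≤ Subgroup.normalizer (puigCenterIn H : Set G) := by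
  intro g hg
  have hL : g ∈ Subgroup.normalizer (puigUpperIn H : Set G) := normalizer_le_puigUpperIn H hg
  rw [Subgroup.mem_normalizer_iff]
  intro x
  rw [puigCenterIn, Subgroup.mem_inf, Subgroup.mem_inf]
  refine and_congr (Subgroup.mem_normalizer_iff.1 hL x) ⟨fun h l hl => ?_, fun h l hl => ?_⟩
  · have h1 := h (g⁻¹ * l * g) ((Subgroup.mem_normalizer_iff''.1 hL l).1 hl)
    calc l * (g * x * g⁻¹) = g * ((g⁻¹ * l * g) * x) * g⁻¹ := by group
      _ = g * (x * (g⁻¹ * l * g)) * g⁻¹ := by rw [h1]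
      _ = g * x * g⁻¹ * l := by group
  · have h1 := h (g * l * g⁻¹) ((Subgroup.mem_normalizer_iff.1 hL l).1 hl)
    calc l * x = g⁻¹ * ((g * l * g⁻¹) * (g * x * g⁻¹)) * g := by group
      _ = g⁻¹ * ((g * x * g⁻¹) * (g * l * g⁻¹)) * g := by rw [h1]
      _ = x * l := by group

/-- The abelian subgroup `Z(L(H))` lies in `L_*(H)`. -/
theorem puigCenterIn_le_lower [Finite G] (H : Subgroup G) : puigCenterIn H ≤ puigLowerIn H := by
  rw [← puigStepIn_upper]
  refine le_puigStepIn (inf_le_left.trans (puigUpperIn_le H)) ?_ ?_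
  · exact ⟨⟨fun a b => Subtype.ext ((a.2.2 b b.2.1).symm)⟩⟩
  · intro l hl
    rw [Subgroup.mem_normalizer_iff]
    intro x
    have key : ∀ y ∈ puigCenterIn H, l * y * l⁻¹ = y := fun y hy => by
      rw [hy.2 l hl, mul_inv_cancel_right]
    constructor
    · intro hx; rwa [key x hx]
    · intro hx
      have := key _ hx
      have e : l * x * l⁻¹ = x := by
        have h2 := mul_inv_eq_iff_eq_mul.1 this
        rw [inv_mul_cancel_right] at h2
        exact mul_left_cancel h2
      rwa [e] at hx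

/-- If `L(S) ≤ T ≤ S` then `L(T) = L(S)`. -/
theorem puigUpperIn_eq_of_le [Finite G] {S T : Subgroup G} (hTS : T ≤ S)
    (h : puigUpperIn S ≤ T) : puigUpperIn T = puigUpperIn S := by
  have h1 : ∀ n, puigUpperIn S ≤ puigSeqIn T (2 * n + 1) ∧ puigSeqIn T (2 * n) ≤ puigLowerIn S := by
    intro n
    induction n with
    | zero => exact ⟨(puigSeqIn_one T).symm ▸ h, bot_le⟩
    | succ n ih =>
      have h2 : puigSeqIn T (2 * (n + 1)) ≤ puigLowerIn S := by
        rw [← puigStepIn_upper]
        exact puigStepIn_mono hTS ih.1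
      refine ⟨?_, h2⟩
      nth_rewrite 1 [← puigStepIn_lower]
      refine sSup_le fun A hA => le_puigStepIn ?_ hA.2.1 (h2.trans hA.2.2)
      refine le_trans ?_ h
      rw [← puigStepIn_lower]
      exact le_puigStepIn hA.1 hA.2.1 hA.2.2
  have h2 : ∀ n, puigSeqIn S (2 * n) ≤ puigSeqIn T (2 * n) ∧
      puigSeqIn T (2 * n + 1) ≤ puigSeqIn S (2 * n + 1) := by
    intro n
    induction n with
    | zero => exact ⟨le_rfl, puigStepIn_mono hTS le_rfl⟩
    | succ n ih =>
      have h3 : puigSeqIn S (2 * (n + 1)) ≤ puigSeqIn T (2 * (n + 1)) := by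
        refine sSup_le fun A hA => le_puigStepIn ?_ hA.2.1 (ih.2.trans hA.2.2)
        refine le_trans ?_ h
        refine le_trans ?_ (puigLowerIn_le_puigUpperIn S)
        exact le_trans (le_puigStepIn hA.1 hA.2.1 hA.2.2) (seq_le_puigLowerIn S (n + 1))
      exact ⟨h3, puigStepIn_mono hTS h3⟩
  exact le_antisymm (le_iInf fun n => (puigUpperIn_le_seq T n).trans (h2 n).2)
    (le_iInf fun n => (h1 n).1)

/-- For solvable `G` of odd order with `O_{p'}(G) = 1`: `L_*(S) ≤ L_*(O_p(G))` and
`L(O_p(G)) ≤ L(S)`. -/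
theorem puig_sylow_pCore [Finite G] [Group.IsSolvable G] (hodd : Odd (Nat.card G)) {p : ℕ}
    [Fact p.Prime] (hp : p ≠ 2) (hO : Cfsg.pPrimeCore p G = ⊥) (S : Sylow p G) :
    puigLowerIn (S : Subgroup G) ≤ puigLowerIn (Cfsg.pCore p G) ∧
      puigUpperIn (Cfsg.pCore p G) ≤ puigUpperIn (S : Subgroup G) := by
  set T := Cfsg.pCore p G with hT
  have hTp : IsPGroup p T := Cfsg.Agent.H19.pCore_isPGroup p
  haveI hTn : T.Normal := Cfsg.Agent.H19.pCore_normal p G
  have hTS : T ≤ S := Cfsg.Agent.H19.pCore_le_sylow S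
  have hTnil : Group.IsNilpotent T := hTp.isNilpotent
  have key : ∀ n, puigSeqIn (S : Subgroup G) (2 * n) ≤ puigSeqIn T (2 * n) ∧
      puigSeqIn T (2 * n + 1) ≤ puigSeqIn (S : Subgroup G) (2 * n + 1) := by
    intro n
    induction n with
    | zero => exact ⟨le_rfl, puigStepIn_mono hTS le_rfl⟩
    | succ n ih =>
      have h3 : puigSeqIn (S : Subgroup G) (2 * (n + 1)) ≤ puigSeqIn T (2 * (n + 1)) := by
        refine sSup_le fun A hA => le_puigStepIn ?_ hA.2.1 (ih.2.trans hA.2.2)
        set P := puigSeqIn T (2 * n + 1)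
        haveI : P.Normal := by
          rw [← Subgroup.normalizer_eq_top_iff, eq_top_iff, ← Subgroup.normalizer_eq_top T]
          exact normalizer_le_puigSeqIn T _
        intro a ha
        obtain ⟨k, hk⟩ := S.2 ⟨a, hA.1 ha⟩
        exact quad_mem_pCore hodd hp P (hTp.to_le (puigSeqIn_le T _)) hO
          (inf_centralizer_puigSeqIn_le T hTnil (Nat.succ_pos _))
          ⟨k, by simpa using congrArg Subtype.val hk⟩
          (quad_of_abelian_normalized hA.2.1 (ih.2.trans hA.2.2) ha)
      exact ⟨h3, puigStepIn_mono hTS h3⟩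
  exact ⟨iSup_le fun n => (key n).1.trans (seq_le_puigLowerIn T n),
    le_iInf fun n => (puigUpperIn_le_seq T n).trans (key n).2⟩

/-- Puig: for solvable `G` of odd order with `O_{p'}(G) = 1`, `Z(L(S))` is normal. -/
theorem puigCenterIn_normal [Finite G] [Group.IsSolvable G] (hodd : Odd (Nat.card G)) {p : ℕ}
    [Fact p.Prime] (hp : p ≠ 2) (hO : Cfsg.pPrimeCore p G = ⊥) (S : Sylow p G) :
    (puigCenterIn (S : Subgroup G)).Normal := by
  obtain ⟨hlow, hup⟩ := puig_sylow_pCore hodd hp hO S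
  set T := Cfsg.pCore p G with hT
  have hTp : IsPGroup p T := Cfsg.Agent.H19.pCore_isPGroup p
  haveI hTn : T.Normal := Cfsg.Agent.H19.pCore_normal p G
  have hTS : T ≤ S := Cfsg.Agent.H19.pCore_le_sylow S
  set Z := puigCenterIn (S : Subgroup G) with hZ
  set Y := puigCenterIn T with hY
  haveI hYn : Y.Normal := by
    rw [← Subgroup.normalizer_eq_top_iff, eq_top_iff, ← Subgroup.normalizer_eq_top T]
    exact normalizer_le_puigCenterIn T
  have hZY : Z ≤ Y := by
    intro z hz
    exact ⟨puigLowerIn_le_puigUpperIn T (hlow (puigCenterIn_le_lower _ hz)),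
      fun l hl => hz.2 l (hup hl)⟩
  have hYT : Y ≤ T := inf_le_left.trans (puigUpperIn_le T)
  have hYlow : Y ≤ puigLowerIn (S : Subgroup G) := by
    rw [← puigStepIn_upper]
    exact le_puigStepIn (hYT.trans hTS) ⟨⟨fun a b => Subtype.ext ((a.2.2 b b.2.1).symm)⟩⟩
      (by rw [Subgroup.normalizer_eq_top Y]; exact le_top)
  set C := Subgroup.centralizer (Y : Set G) with hC
  set q := QuotientGroup.mk' C with hq
  set D := (Cfsg.pCore p (G ⧸ C)).comap q with hD
  haveI hDn : D.Normal := (Cfsg.Agent.H19.pCore_normal p _).comap q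
  have hLD : puigUpperIn (S : Subgroup G) ≤ D := by
    rw [← puigStepIn_lower]
    refine sSup_le fun A hA a ha => ?_
    obtain ⟨k, hk⟩ := S.2 ⟨a, hA.1 ha⟩
    exact quad_mem_pCore_quotient hodd hp Y (hTp.to_le hYT)
      ⟨k, by simpa using congrArg Subtype.val hk⟩
      (quad_of_abelian_normalized hA.2.1 (hYlow.trans hA.2.2) ha)
  obtain ⟨Q, hQ⟩ := Cfsg.Agent.H44.exists_sylow_eq_subgroupOf S D
  have hfr := Sylow.normalizer_sup_eq_top Q
  rw [hQ, Subgroup.subgroupOf_map_subtype] at hfr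
  set T' := (S : Subgroup G) ⊓ D with hT'
  have hLT' : puigUpperIn T' = puigUpperIn (S : Subgroup G) :=
    puigUpperIn_eq_of_le inf_le_left (le_inf (puigUpperIn_le _) hLD)
  have hN1 : Subgroup.normalizer (T' : Set G) ≤ Subgroup.normalizer (Z : Set G) := by
    refine (normalizer_le_puigCenterIn T').trans ?_
    rw [hZ, puigCenterIn, puigCenterIn, hLT']
  have hCle : C ≤ Subgroup.normalizer (Z : Set G) := by
    refine le_trans ?_ (Subgroup.centralizer_le_normalizer _)
    exact Subgroup.centralizer_le hZY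
  have hDle : D ≤ Subgroup.normalizer (Z : Set G) := by
    have hCD : C ≤ D := fun c hc => by
      show q c ∈ Cfsg.pCore p (G ⧸ C)
      rw [show q c = 1 from (QuotientGroup.eq_one_iff _).2 hc]
      exact one_mem _
    have h1 : (T' ⊔ C).relIndex D ∣ C.relIndex D := by
      refine Subgroup.relIndex_dvd_of_le_left D le_sup_right
    have h2 : (T' ⊔ C).relIndex D ∣ T'.relIndex D :=
      Subgroup.relIndex_dvd_of_le_left D le_sup_left
    have hC1 : ∃ k, C.relIndex D = p ^ k := by
      have e : C = q.ker := (QuotientGroup.ker_mk' C).symm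
      rw [e, Subgroup.relIndex_ker]
      exact IsPGroup.iff_card.1 ((Cfsg.Agent.H19.pCore_isPGroup (G := G ⧸ C) p).to_le
        (Subgroup.map_comap_le q _))
    have hQ1 : ¬ p ∣ T'.relIndex D := by
      have := Q.not_dvd_index
      rw [hQ] at this
      rwa [hT', Subgroup.inf_relIndex_right]
    obtain ⟨k, hk⟩ := hC1
    rw [hk] at h1
    have h3 : (T' ⊔ C).relIndex D = 1 := by
      obtain ⟨j, _, hj⟩ := (Nat.dvd_prime_pow Fact.out).1 h1
      rcases Nat.eq_zero_or_pos j with rfl | hjpos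
      · simpa using hj
      · exact absurd ((hj ▸ dvd_pow_self p hjpos.ne').trans h2) hQ1
    rw [Subgroup.relIndex_eq_one] at h3
    refine h3.trans (sup_le (le_trans ?_ hN1) hCle)
    exact Subgroup.le_normalizer
  rw [← Subgroup.normalizer_eq_top_iff, eq_top_iff, ← hfr]
  exact sup_le hN1 hDle

/-- The Puig series of an injective image. -/
theorem puigUpperIn_map_of_injOn {G' : Type*} [Group G'] (f : G →* G') (H : Subgroup G)
    (hf : Set.InjOn f H) : (puigUpperIn H).map f = puigUpperIn (H.map f) := by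
  have hinj : Function.Injective (f.comp H.subtype) := fun a b h => Subtype.ext (hf a.2 b.2 h)
  have := puigSubgroup_eq (f.comp H.subtype) hinj
  rwa [← Subgroup.map_map, puigSubgroup_subgroup_eq, MonoidHom.range_comp,
    Subgroup.range_subtype] at this

theorem puigCenterIn_map_of_injOn {G' : Type*} [Group G'] (f : G →* G') (H : Subgroup G)
    (hf : Set.InjOn f H) : (puigCenterIn H).map f = puigCenterIn (H.map f) := by
  rw [puigCenterIn, puigCenterIn, ← puigUpperIn_map_of_injOn f H hf]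
  ext x
  constructor
  · rintro ⟨z, ⟨hz1, hz2⟩, rfl⟩
    refine ⟨⟨z, hz1, rfl⟩, ?_⟩
    rintro _ ⟨l, hl, rfl⟩
    rw [← map_mul, ← map_mul, hz2 l hl]
  · rintro ⟨⟨z, hz, rfl⟩, hc⟩
    refine ⟨z, ⟨hz, fun l hl => ?_⟩, rfl⟩
    exact hf (H.mul_mem (puigUpperIn_le H hl) (puigUpperIn_le H hz))
      (H.mul_mem (puigUpperIn_le H hz) (puigUpperIn_le H hl))
      (by rw [map_mul, map_mul]; exact hc (f l) ⟨l, hl, rfl⟩)

/-- **Puig's theorem** for solvable groups of odd order. -/
theorem puig_factorization [Finite G] [Group.IsSolvable G] (hodd : Odd (Nat.card G)) {p : ℕ}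
    [Fact p.Prime] (hp : p ≠ 2) (S : Sylow p G) :
    Cfsg.pPrimeCore p G ⊔ Subgroup.normalizer (puigCenterIn (S : Subgroup G) : Set G) = ⊤ := by
  set K := Cfsg.pPrimeCore p G with hK
  haveI hKn : K.Normal := Cfsg.Agent.H19.pPrimeCore_normal p G
  set Z := puigCenterIn (S : Subgroup G) with hZ
  set q := QuotientGroup.mk' K with hq
  have hZS : Z ≤ S := inf_le_left.trans (puigUpperIn_le _)
  have hKcop : (Nat.card K).Coprime p := Cfsg.Agent.H19.pPrimeCore_coprime p
  have hinj : Set.InjOn q ((S : Subgroup G) : Set G) := by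
    intro a ha b hb hab
    have h1 : a⁻¹ * b ∈ K := QuotientGroup.eq.1 hab
    have h2 := Cfsg.Agent.H19.inf_eq_bot_of_isPGroup_coprime S.2 hKcop
    exact inv_mul_eq_one.1 (Subgroup.mem_bot.1 (h2 ▸ Subgroup.mem_inf.2
      ⟨mul_mem (inv_mem ha) hb, h1⟩))
  set S' : Sylow p (G ⧸ K) := Sylow.mapSurjective (QuotientGroup.mk'_surjective K) S with hS'
  have hn : (puigCenterIn (S' : Subgroup (G ⧸ K))).Normal :=
    puigCenterIn_normal (hodd.of_dvd_nat (Subgroup.card_quotient_dvd_card K)) hp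
      (Cfsg.Agent.H53.pPrimeCore_quotient_eq_bot p) S'
  have e : (S' : Subgroup (G ⧸ K)) = (S : Subgroup G).map q := rfl
  rw [e, ← puigCenterIn_map_of_injOn q _ hinj] at hn
  set M := (Z.map q).comap q with hM
  haveI : M.Normal := hn.comap q
  have hMeq : M = Z ⊔ K := by
    rw [hM, Subgroup.comap_map_eq, hq, QuotientGroup.ker_mk']
  have hZM : Z ≤ M := Subgroup.le_comap_map q Z
  have hZp : IsPGroup p Z := S.2.to_le hZS
  have hnd : ¬ p ∣ Z.relIndex M := by
    intro h
    have h1 : Z.relIndex M * Nat.card Z ∣ Nat.card K * Nat.card Z := by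
      have e1 : Z.relIndex M * Nat.card Z = Nat.card M := by
        rw [← Subgroup.relIndex_bot_left Z, mul_comm, Subgroup.relIndex_mul_relIndex _ _ _ bot_le hZM,
          Subgroup.relIndex_bot_left]
      rw [e1, hMeq, sup_comm]
      exact Cfsg.Agent.H19.card_sup_dvd K Z
    exact (Fact.out : p.Prime).not_dvd_one
      (hKcop.gcd_eq_one ▸ Nat.dvd_gcd (h.trans (Nat.dvd_of_mul_dvd_mul_right Nat.card_pos h1))
        dvd_rfl)
  have hfr : Subgroup.normalizer (((Z.subgroupOf M).map M.subtype : Subgroup G) : Set G) ⊔ M = ⊤ :=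
    Sylow.normalizer_sup_eq_top
      ((hZp.comap_of_injective M.subtype M.subtype_injective).toSylow
        (P := Z.subgroupOf M) (by exact hnd))
  rw [Subgroup.subgroupOf_map_subtype, inf_of_le_left hZM, hMeq] at hfr
  rw [eq_top_iff, ← hfr]
  exact sup_le le_sup_right (sup_le (le_trans Subgroup.le_normalizer le_sup_right) le_sup_left)

end Cfsg.Agent.H54
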