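import Mathlib
import Cfsg.Prelude.Def_OddOrder
import Cfsg.Agent.H19.Basic
import Cfsg.Agent.H19.SchurZassenhaus
import Cfsg.Agent.H20.Basic
import Cfsg.Agent.H22.FocalTransfer
import Cfsg.Agent.H22.Frobenius
import Cfsg.Agent.H54.CNSolvable
import Cfsg.Agent.H54.PuigTheorem

/-!
A minimal simple CN-group of odd order has no three-step subgroups.
-/

set_option autoImplicit false
set_option linter.style.haveILetI false
open scoped Pointwise

namespace Cfsg.Agent.H54

variable {G : Type*} [Group G]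

/-! ### Minimal simple groups of odd order -/

theorem minSimple_nontrivial (hG : Cfsg.IsMinSimpleOddOrder G) : Nontrivial G := hG.2.1.toNontrivial

theorem minSimple_solvable (hG : Cfsg.IsMinSimpleOddOrder G) {H : Subgroup G} (hH : H ≠ ⊤) :
    Group.IsSolvable H := hG.2.2.2 H hH

theorem minSimple_odd (hG : Cfsg.IsMinSimpleOddOrder G) (H : Subgroup G) : Odd (Nat.card H) :=
  hG.1.of_dvd_nat (Subgroup.card_subgroup_dvd_card H)

theorem minSimple_not_nilpotent [Finite G] (hG : Cfsg.IsMinSimpleOddOrder G) :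
    ¬ Group.IsNilpotent G := by
  intro h
  haveI := h
  haveI := minSimple_nontrivial hG
  haveI := hG.2.1
  rcases Subgroup.Normal.eq_bot_or_eq_top (H := Subgroup.center G) inferInstance with hc | hc
  · exact (Group.IsNilpotent.center_ne_bot (G := G)) hc
  · exact hG.2.2.1 ⟨⟨fun a b => ((Subgroup.mem_center_iff.1 (hc ▸ Subgroup.mem_top a)) b).symm⟩⟩

theorem minSimple_commutator (hG : Cfsg.IsMinSimpleOddOrder G) : commutator G = ⊤ := by
  haveI := hG.2.1
  refine (Subgroup.Normal.eq_bot_or_eq_top (H := commutator G) inferInstance).resolve_left fun h => ?_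
  exact hG.2.2.1 ⟨⟨fun a b => commutatorElement_eq_one_iff_mul_comm.1
    (Subgroup.mem_bot.1 (h ▸ Subgroup.commutator_mem_commutator (Subgroup.mem_top a)
      (Subgroup.mem_top b)))⟩⟩

theorem minSimple_normalizer_ne_top [Finite G] (hG : Cfsg.IsMinSimpleOddOrder G) {T : Subgroup G}
    (hT : T ≠ ⊥) (hn : Group.IsNilpotent T) : Subgroup.normalizer (T : Set G) ≠ ⊤ := by
  intro h
  haveI := hG.2.1
  rcases Subgroup.Normal.eq_bot_or_eq_top (H := T) (Subgroup.normalizer_eq_top_iff.1 h) with e | e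
  · exact hT e
  · subst e
    haveI := hn
    exact minSimple_not_nilpotent hG (Group.nilpotent_of_mulEquiv Subgroup.topEquiv)

/-! ### Sylow subgroups of subgroups, as subgroups of the ambient group -/

theorem le_of_normal_sylowOf [Finite G] {p : ℕ} [Fact p.Prime] {X W P : Subgroup G} (hWX : W ≤ X)
    (hW : IsPGroup p W) (hn : X ≤ Subgroup.normalizer (W : Set G)) (hd : ¬ p ∣ W.relIndex X)
    (hP : IsPGroup p P) (hPX : P ≤ X) : P ≤ W := by
  have hV : IsPGroup p (P ⊔ W : Subgroup G) := hP.to_sup_of_normal_right' hW (hPX.trans hn)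
  obtain ⟨k, hk⟩ := IsPGroup.iff_card.1 hV
  have h1 : W.relIndex (P ⊔ W) ∣ p ^ k := hk ▸ Subgroup.index_dvd_card (W.subgroupOf (P ⊔ W))
  have h2 : W.relIndex (P ⊔ W) ∣ W.relIndex X :=
    Dvd.intro _ (Subgroup.relIndex_mul_relIndex W (P ⊔ W) X le_sup_right (sup_le hPX hWX))
  have h3 : W.relIndex (P ⊔ W) = 1 := by
    by_contra hne
    obtain ⟨r, hr, hrd⟩ := Nat.exists_prime_and_dvd hne
    have := (Nat.prime_dvd_prime_iff_eq hr Fact.out).1 (hr.dvd_of_dvd_pow (hrd.trans h1))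
    exact hd (this ▸ hrd.trans h2)
  exact le_sup_left.trans (Subgroup.relIndex_eq_one.1 h3)

theorem exists_sylowOf [Finite G] {p : ℕ} [Fact p.Prime] {X P : Subgroup G} (hP : IsPGroup p P)
    (hPX : P ≤ X) : ∃ R ≤ X, IsPGroup p R ∧ P ≤ R ∧ ¬ p ∣ R.relIndex X := by
  obtain ⟨R, hR⟩ := (hP.comap_of_injective X.subtype X.subtype_injective).exists_le_sylow
  refine ⟨(R : Subgroup X).map X.subtype, Subgroup.map_subtype_le _, R.2.map _,
    fun x hx => ⟨⟨x, hPX hx⟩, hR (show (⟨x, hPX hx⟩ : X) ∈ P.comap X.subtype from hx), rfl⟩, ?_⟩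
  rw [Subgroup.relIndex, Subgroup.subgroupOf,
    Subgroup.comap_map_eq_self_of_injective X.subtype_injective]
  exact R.not_dvd_index

/-! ### `N(Z(L(S)))` -/

/-- `N(Z(L(S)))`. -/
def puigM (S : Subgroup G) : Subgroup G := Subgroup.normalizer (puigCenterIn S : Set G)

theorem puigM_map (S : Subgroup G) (e : G ≃* G) :
    (puigM S).map e.toMonoidHom = puigM (S.map e.toMonoidHom) := by
  rw [puigM, puigM, Subgroup.map_equiv_normalizer_eq,
    puigCenterIn_map_of_injOn e.toMonoidHom S e.injective.injOn]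

theorem puigM_conj (S : Subgroup G) (g : G) :
    MulAut.conj g • puigM S = puigM (MulAut.conj g • S) := puigM_map S (MulAut.conj g)

theorem le_puigM (S : Subgroup G) : S ≤ puigM S :=
  Subgroup.le_normalizer.trans (normalizer_le_puigCenterIn S)

theorem puigCenterIn_le (S : Subgroup G) : puigCenterIn S ≤ S :=
  inf_le_left.trans (puigUpperIn_le S)

theorem puigCenterIn_ne_bot [Finite G] {p : ℕ} [Fact p.Prime] {S : Subgroup G} (hS : IsPGroup p S)
    (hS1 : S ≠ ⊥) : puigCenterIn S ≠ ⊥ := by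
  set L := puigUpperIn S with hL
  have hL1 : L ≠ ⊥ := by
    intro e
    refine hS1 (le_bot_iff.1 (e ▸ ?_))
    have hC : S ≤ Subgroup.centralizer (puigUpperIn S : Set G) := fun x _ y hy => by
      have : y ∈ (⊥ : Subgroup G) := e ▸ hy
      rw [Subgroup.mem_bot.1 this, one_mul, mul_one]
    exact (le_inf le_rfl hC).trans (inf_centralizer_puigUpperIn_le S hS.isNilpotent)
  have hLp : IsPGroup p L := hS.to_le (puigUpperIn_le S)
  haveI : Nontrivial L := (Subgroup.nontrivial_iff_ne_bot L).2 hL1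
  haveI := IsPGroup.center_nontrivial hLp
  obtain ⟨⟨⟨x, hx⟩, hxc⟩, hx1⟩ := exists_ne (1 : Subgroup.center L)
  intro e
  refine hx1 (Subtype.ext (Subtype.ext (Subgroup.mem_bot.1 (e ▸ ⟨hx, fun y hy => ?_⟩ : x ∈ (⊥ : Subgroup G)))))
  exact congrArg Subtype.val (Subgroup.mem_center_iff.1 hxc ⟨y, hy⟩)

/-! ### Subgroups without normal Sylow subgroups -/

/-- A proper subgroup with `O_p ≠ 1` and no normal Sylow `p`-subgroup. -/
def IsBad (p : ℕ) (X : Subgroup G) : Prop :=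
  X ≠ ⊤ ∧ (∃ T ≤ X, T ≠ ⊥ ∧ IsPGroup p T ∧ X ≤ Subgroup.normalizer (T : Set G)) ∧
    ∀ W ≤ X, IsPGroup p W → X ≤ Subgroup.normalizer (W : Set G) → p ∣ W.relIndex X

theorem IsBad.mono [Finite G] {p : ℕ} [Fact p.Prime] {X N T : Subgroup G} (hX : IsBad p X)
    (hXN : X ≤ N) (hN : N ≠ ⊤) (hTN : T ≤ N) (hT1 : T ≠ ⊥) (hTp : IsPGroup p T)
    (hn : N ≤ Subgroup.normalizer (T : Set G)) : IsBad p N := by
  refine ⟨hN, ⟨T, hTN, hT1, hTp, hn⟩, fun W hWN hWp hWn => ?_⟩
  by_contra hd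
  obtain ⟨R, hRX, hRp, -, hRd⟩ := exists_sylowOf (X := X) (P := ⊥) (p := p) IsPGroup.of_bot bot_le
  have hRW : R ≤ W := le_of_normal_sylowOf hWN hWp hWn hd hRp (hRX.trans hXN)
  refine hRd (dvd_trans (hX.2.2 (W ⊓ X) inf_le_right (hWp.to_le inf_le_left)
    (Cfsg.Agent.H20.le_normalizer_inf (hXN.trans hWn) Subgroup.le_normalizer)) ?_)
  exact Subgroup.relIndex_dvd_of_le_left _ (le_inf hRW hRX)

theorem IsBad.ne_two (hG : Cfsg.IsMinSimpleOddOrder G) [Finite G] {p : ℕ} [Fact p.Prime]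
    {X : Subgroup G} (hX : IsBad p X) : p ≠ 2 ∧ p ∣ Nat.card G := by
  obtain ⟨-, ⟨T, -, hT1, hTp, -⟩, -⟩ := hX
  obtain ⟨k, hk⟩ := IsPGroup.iff_card.1 hTp
  have hk0 : k ≠ 0 := by
    rintro rfl
    exact hT1 (Subgroup.card_eq_one.1 (by rw [hk, pow_zero]))
  have hd : p ∣ Nat.card G :=
    ((dvd_pow_self p hk0).trans hk.symm.dvd).trans (Subgroup.card_subgroup_dvd_card T)
  refine ⟨?_, hd⟩
  rintro rfl
  exact hG.1.not_two_dvd_nat hd

theorem IsBad.threeStep [Finite G] (hG : Cfsg.IsMinSimpleOddOrder G) (hCN : Cfsg.IsCNGroup G) {p : ℕ}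
    [Fact p.Prime] {X : Subgroup G} (hX : IsBad p X) :
    Cfsg.pCore p X ≠ ⊥ ∧ (∀ S : Sylow p X, ¬ (S : Subgroup X).Normal) ∧
      Cfsg.pPrimeCore p X = ⊥ ∧ Cfsg.IsThreeStepGroup p X := by
  haveI := minSimple_solvable hG hX.1
  obtain ⟨T, hTX, hT1, hTp, hTn⟩ := hX.2.1
  haveI : (T.subgroupOf X).Normal := (Subgroup.normal_subgroupOf_iff_le_normalizer hTX).2 hTn
  have hO : Cfsg.pCore p X ≠ ⊥ := fun e => by
    have h1 := Cfsg.Agent.H19.le_pCore (p := p) (inferInstance : (T.subgroupOf X).Normal)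
      (hTp.comap_of_injective X.subtype X.subtype_injective)
    rw [e, le_bot_iff, Subgroup.subgroupOf_eq_bot] at h1
    exact hT1 (disjoint_self.1 (h1.mono_right hTX))
  have hS : ∀ S : Sylow p X, ¬ (S : Subgroup X).Normal := by
    intro S hn
    have hd := hX.2.2 ((S : Subgroup X).map X.subtype) (Subgroup.map_subtype_le _) (S.2.map _) (by
      have := Subgroup.le_normalizer_map (H := (S : Subgroup X)) X.subtype
      rw [Subgroup.normalizer_eq_top_iff.2 hn, ← MonoidHom.range_eq_map, Subgroup.range_subtype] at this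
      exact this)
    rw [Subgroup.relIndex, Subgroup.subgroupOf,
      Subgroup.comap_map_eq_self_of_injective X.subtype_injective] at hd
    exact S.not_dvd_index hd
  have hCNX := cn_subgroup hCN X
  refine ⟨hO, hS, ?_, cn_threeStep hCNX hO hS⟩
  by_contra hne
  haveI := Cfsg.Agent.H19.pPrimeCore_normal p X
  obtain ⟨A, q, hAn, hAle, hA1, -, hq, hAq, -⟩ := Cfsg.Agent.H19.exists_normal_elementary_le
    (Cfsg.pPrimeCore p X) inferInstance hne
  have h1 : A ≤ Cfsg.pCore p X := by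
    rw [← (cn_fitting_eq_pCore hCNX hO hS).2]
    haveI : Fact q.Prime := ⟨hq⟩
    exact Cfsg.Agent.H19.le_fitting hAn hAq.isNilpotent
  refine hA1 (le_bot_iff.1 ?_)
  rw [← Cfsg.Agent.H19.inf_eq_bot_of_isPGroup_coprime (Cfsg.Agent.H19.pCore_isPGroup p)
    (Cfsg.Agent.H19.pPrimeCore_coprime (G := X) p)]
  exact le_inf h1 hAle

/-- A bad subgroup normalizes `Z(L(R))` for its Sylow subgroup `R`. -/
theorem IsBad.le_puigM [Finite G] (hG : Cfsg.IsMinSimpleOddOrder G) (hCN : Cfsg.IsCNGroup G) {p : ℕ}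
    [Fact p.Prime] {X R : Subgroup G} (hX : IsBad p X) (hRX : R ≤ X) (hR : IsPGroup p R)
    (hd : ¬ p ∣ R.relIndex X) : X ≤ puigM R := by
  haveI := minSimple_solvable hG hX.1
  obtain ⟨-, -, hO', -⟩ := hX.threeStep hG hCN
  let R' : Sylow p X := (hR.comap_of_injective X.subtype X.subtype_injective).toSylow hd
  have hn := puigCenterIn_normal (minSimple_odd hG X) (hX.ne_two hG).1 hO' R'
  have hRe : ((R' : Subgroup X)).map X.subtype = R := by
    show (R.comap X.subtype).map X.subtype = R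
    rw [Subgroup.map_comap_eq, Subgroup.range_subtype, inf_of_le_right hRX]
  have := Subgroup.le_normalizer_map (H := puigCenterIn (R' : Subgroup X)) X.subtype
  rw [Subgroup.normalizer_eq_top_iff.2 hn, ← MonoidHom.range_eq_map, Subgroup.range_subtype,
    puigCenterIn_map_of_injOn X.subtype _ X.subtype_injective.injOn, hRe] at this
  exact this

/-- Every bad subgroup lies in some `N(Z(L(S)))`, `S` a Sylow subgroup. -/
theorem IsBad.exists_le_puigM [Finite G] (hG : Cfsg.IsMinSimpleOddOrder G) (hCN : Cfsg.IsCNGroup G)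
    {p : ℕ} [Fact p.Prime] {X : Subgroup G} (hX : IsBad p X) :
    ∃ S : Sylow p G, X ≤ puigM (S : Subgroup G) := by
  suffices key : ∀ (n : ℕ) (X R : Subgroup G), IsBad p X → R ≤ X → IsPGroup p R →
      ¬ p ∣ R.relIndex X → Nat.card G - Nat.card R = n → ∃ S : Sylow p G, X ≤ puigM (S : Subgroup G) by
    obtain ⟨R, hRX, hR, -, hd⟩ := exists_sylowOf (X := X) (P := ⊥) (p := p) IsPGroup.of_bot bot_le
    exact key _ X R hX hRX hR hd rfl
  intro n
  induction n using Nat.strong_induction_on with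
  | _ n ih =>
  intro X R hX hRX hR hd hn
  have hXM := hX.le_puigM hG hCN hRX hR hd
  obtain ⟨S, hS⟩ := hR.exists_le_sylow
  rcases hS.lt_or_eq with hlt | heq
  swap
  · exact ⟨S, heq ▸ hXM⟩
  have hR1 : R ≠ ⊥ := by
    intro e
    obtain ⟨T, hTX, hT1, hTp, -⟩ := hX.2.1
    obtain ⟨k, hk⟩ := IsPGroup.iff_card.1 hTp
    have hk0 : k ≠ 0 := by
      rintro rfl
      exact hT1 (Subgroup.card_eq_one.1 (by rw [hk, pow_zero]))
    refine hd ?_
    rw [e, Subgroup.relIndex_bot_left]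
    exact ((dvd_pow_self p hk0).trans hk.symm.dvd).trans (Subgroup.card_dvd_of_le hTX)
  have hZp : IsPGroup p (puigCenterIn R) := hR.to_le (puigCenterIn_le R)
  have hbad : IsBad p (puigM R) := hX.mono hXM
    (minSimple_normalizer_ne_top hG (puigCenterIn_ne_bot hR hR1) hZp.isNilpotent)
    Subgroup.le_normalizer (puigCenterIn_ne_bot hR hR1) hZp le_rfl
  obtain ⟨R₁, hR₁M, hR₁, hle, hd₁⟩ := exists_sylowOf (X := puigM R)
    (P := (S : Subgroup G) ⊓ Subgroup.normalizer (R : Set G)) (S.2.to_le inf_le_left)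
    (inf_le_right.trans (normalizer_le_puigCenterIn R))
  have h1 : Nat.card R < Nat.card R₁ := by
    refine lt_of_lt_of_le ?_ (Subgroup.card_le_of_le hle)
    exact Set.Finite.card_lt_card (Set.toFinite _) (Cfsg.Agent.H22.lt_inf_normalizer_of_lt S.2 hlt)
  have h2 : Nat.card R₁ ≤ Nat.card G := Subgroup.card_le_card_group R₁
  obtain ⟨S', hS'⟩ := ih (Nat.card G - Nat.card R₁) (by omega) (puigM R) R₁ hbad hR₁M hR₁ hd₁ rfl
  exact ⟨S', hXM.trans hS'⟩

/-- Every proper subgroup with `O_p ≠ 1` has a normal Sylow subgroup or is bad. -/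
theorem sylowOf_normal_or_bad {p : ℕ} {X T : Subgroup G} (hX : X ≠ ⊤) (hTX : T ≤ X) (hT1 : T ≠ ⊥)
    (hTp : IsPGroup p T) (hTn : X ≤ Subgroup.normalizer (T : Set G)) :
    IsBad p X ∨ ∃ W ≤ X, IsPGroup p W ∧ X ≤ Subgroup.normalizer (W : Set G) ∧ ¬ p ∣ W.relIndex X := by
  by_cases h : ∀ W ≤ X, IsPGroup p W → X ≤ Subgroup.normalizer (W : Set G) → p ∣ W.relIndex X
  · exact Or.inl ⟨hX, ⟨T, hTX, hT1, hTp, hTn⟩, h⟩
  · push Not at h
    obtain ⟨W, h1, h2, h3, h4⟩ := h
    exact Or.inr ⟨W, h1, h2, h3, h4⟩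

/-- Sylow subgroups with nontrivial intersection have the same `N(Z(L(S)))`. -/
theorem puigM_eq_of_inf_ne_bot [Finite G] (hG : Cfsg.IsMinSimpleOddOrder G) (hCN : Cfsg.IsCNGroup G)
    {p : ℕ} [Fact p.Prime] (S₁ S₂ : Sylow p G) (h : (S₁ : Subgroup G) ⊓ S₂ ≠ ⊥) :
    puigM (S₁ : Subgroup G) = puigM (S₂ : Subgroup G) := by
  suffices key : ∀ (n : ℕ) (S₁ S₂ : Sylow p G), (S₁ : Subgroup G) ⊓ S₂ ≠ ⊥ →
      Nat.card G - Nat.card ((S₁ : Subgroup G) ⊓ S₂ : Subgroup G) = n →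
      puigM (S₁ : Subgroup G) = puigM (S₂ : Subgroup G) from key _ S₁ S₂ h rfl
  intro n
  induction n using Nat.strong_induction_on with
  | _ n ih =>
  intro S₁ S₂ hne hn
  rcases eq_or_ne S₁ S₂ with rfl | h12
  · rfl
  set Q := (S₁ : Subgroup G) ⊓ S₂ with hQ
  have hQp : IsPGroup p Q := S₁.2.to_le inf_le_left
  set N := Subgroup.normalizer (Q : Set G) with hN
  have hN' : N ≠ ⊤ := minSimple_normalizer_ne_top hG hne hQp.isNilpotent
  have hQ1 : Q < (S₁ : Subgroup G) := lt_of_le_of_ne inf_le_left fun e =>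
    h12 (Sylow.ext (S₁.3 S₂.2 (e ▸ inf_le_right)).symm)
  have hQ2 : Q < (S₂ : Subgroup G) := lt_of_le_of_ne inf_le_right fun e =>
    h12 (Sylow.ext (S₂.3 S₁.2 (e ▸ inf_le_left)))
  have step : ∀ S V : Sylow p G, Q < (S : Subgroup G) → (S : Subgroup G) ⊓ N ≤ (V : Subgroup G) →
      puigM (S : Subgroup G) = puigM (V : Subgroup G) := by
    intro S V hlt hle
    have h3 : Q < (S : Subgroup G) ⊓ V :=
      lt_of_lt_of_le (Cfsg.Agent.H22.lt_inf_normalizer_of_lt S.2 hlt) (le_inf inf_le_left hle)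
    have h4 : Nat.card Q < Nat.card ((S : Subgroup G) ⊓ V : Subgroup G) :=
      Set.Finite.card_lt_card (Set.toFinite _) h3
    have h5 := Subgroup.card_le_card_group ((S : Subgroup G) ⊓ V : Subgroup G)
    refine ih _ (by omega) S V (fun e => ?_) rfl
    rw [e] at h3
    exact not_lt_bot h3
  rcases sylowOf_normal_or_bad hN' Subgroup.le_normalizer hne hQp le_rfl with hbad | ⟨W, hW, hWp, hWn, hd⟩
  · obtain ⟨S₄, hS₄⟩ := hbad.exists_le_puigM hG hCN
    have conjcase : ∀ S : Sylow p G, Q < (S : Subgroup G) →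
        puigM (S : Subgroup G) = puigM (S₄ : Subgroup G) := by
      intro S hlt
      have hP : (S : Subgroup G) ⊓ N ≤ puigM (S₄ : Subgroup G) := inf_le_right.trans hS₄
      obtain ⟨V₀, hV₀⟩ := ((S.2.to_le (inf_le_left : (S : Subgroup G) ⊓ N ≤ S)).comap_of_injective
        (puigM (S₄ : Subgroup G)).subtype Subtype.val_injective).exists_le_sylow
      obtain ⟨m, hm⟩ := MulAction.exists_smul_eq (puigM (S₄ : Subgroup G))
        (S₄.subtype (le_puigM _)) V₀
      have hV : (S : Subgroup G) ⊓ N ≤ ((m : G) • S₄ : Sylow p G) := by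
        intro x hx
        have h6 : (⟨x, hP hx⟩ : puigM (S₄ : Subgroup G)) ∈ (V₀ : Subgroup _) :=
          hV₀ (show _ ∈ ((S : Subgroup G) ⊓ N).comap (puigM (S₄ : Subgroup G)).subtype from hx)
        rw [← hm, Sylow.coe_subgroup_smul, Cfsg.Agent.H19.mem_conj_smul] at h6
        rw [Sylow.coe_subgroup_smul, Cfsg.Agent.H19.mem_conj_smul]
        exact h6
      rw [step S _ hlt hV, Sylow.coe_subgroup_smul, ← puigM_conj]
      exact Cfsg.Agent.H19.conj_smul_of_mem m.2
    rw [conjcase S₁ hQ1, conjcase S₂ hQ2]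
  · obtain ⟨S₃, hS₃⟩ := hWp.exists_le_sylow
    have hle : ∀ S : Sylow p G, (S : Subgroup G) ⊓ N ≤ (S₃ : Subgroup G) := fun S =>
      (le_of_normal_sylowOf hW hWp hWn hd (S.2.to_le inf_le_left) inf_le_right).trans hS₃
    rw [step S₁ S₃ hQ1 (hle S₁), step S₂ S₃ hQ2 (hle S₂)]

/-- There are no bad subgroups. -/
theorem not_isBad [Finite G] (hG : Cfsg.IsMinSimpleOddOrder G) (hCN : Cfsg.IsCNGroup G) {p : ℕ}
    [Fact p.Prime] (X : Subgroup G) : ¬ IsBad p X := by
  intro hX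
  obtain ⟨S, hXM⟩ := hX.exists_le_puigM hG hCN
  set M := puigM (S : Subgroup G) with hM
  have hS1 : (S : Subgroup G) ≠ ⊥ := S.ne_bot_of_dvd_card (hX.ne_two hG).2
  have hbad : IsBad p M := hX.mono hXM
    (minSimple_normalizer_ne_top hG (puigCenterIn_ne_bot S.2 hS1)
      (S.2.to_le (puigCenterIn_le _)).isNilpotent)
    Subgroup.le_normalizer (puigCenterIn_ne_bot S.2 hS1) (S.2.to_le (puigCenterIn_le _)) le_rfl
  have hSM : (S : Subgroup G) ≤ M := Cfsg.Agent.H54.le_puigM _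
  have hfus : ∀ x ∈ (S : Subgroup G), ∀ g : G, g * x * g⁻¹ ∈ (S : Subgroup G) →
      ∃ n ∈ M, n * x * n⁻¹ = g * x * g⁻¹ := by
    intro x hx g hg
    rcases eq_or_ne x 1 with rfl | hx1
    · exact ⟨1, one_mem _, by simp⟩
    refine ⟨g, ?_, rfl⟩
    have hxg : g * x * g⁻¹ ∈ ((g • S : Sylow p G) : Subgroup G) := by
      rw [Sylow.coe_subgroup_smul, Cfsg.Agent.H19.mem_conj_smul]
      simpa [mul_assoc] using hx
    have heq := puigM_eq_of_inf_ne_bot hG hCN S (g • S) fun e => hx1 (by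
      have h1 := Subgroup.mem_bot.1 (e ▸ Subgroup.mem_inf.2 ⟨hg, hxg⟩)
      simpa [mul_assoc] using congrArg (fun t => g⁻¹ * t * g) h1)
    have hgM : ((g • S : Sylow p G) : Subgroup G) ≤ M := by
      rw [hM, heq]; exact Cfsg.Agent.H54.le_puigM _
    obtain ⟨m, hm⟩ := MulAction.exists_smul_eq M (S.subtype hSM) ((g • S).subtype hgM)
    have hm' : (m : G) • S = g • S := Sylow.subtype_injective (P := (m : G) • S) (Q := g • S)
      (hP := Sylow.smul_le hSM m)
      (hQ := hgM) (by rw [← hm]; exact (Sylow.smul_subtype hSM m).symm)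
    have h2 : ((m : G)⁻¹ * g) • S = S := by rw [mul_smul, ← hm', inv_smul_smul]
    have h3 : (m : G)⁻¹ * g ∈ M :=
      normalizer_le_puigCenterIn _ (Sylow.smul_eq_iff_mem_normalizer.1 h2)
    simpa using M.mul_mem m.2 h3
  have h1 := Cfsg.Agent.H22.commutator_inf_sylow_of_controls S M hSM hfus
  rw [minSimple_commutator hG, top_inf_eq] at h1
  obtain ⟨-, A, -, -, -, -, hKn, hKtop, ⟨n, hn⟩, -⟩ := (hbad.threeStep hG hCN).2.2.2
  set K := Cfsg.pCore p M ⊔ A
  haveI := hKn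
  have hSc : (S.subtype hSM : Subgroup M) ≤ commutator M := by
    intro s hs
    have h2 : (s : G) ∈ ⁅M, M⁆ := (h1.le (show (s : G) ∈ (S : Subgroup G) from hs)).1
    rw [← Subgroup.map_subtype_commutator] at h2
    obtain ⟨t, ht, hts⟩ := h2
    rwa [Subtype.ext hts] at ht
  have htop : commutator M ⊔ K = ⊤ := by
    rw [← Subgroup.index_eq_one]
    by_contra hne
    obtain ⟨r, hr, hrd⟩ := Nat.exists_prime_and_dvd hne
    have hrp : r = p := (Nat.prime_dvd_prime_iff_eq hr Fact.out).1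
      (hr.dvd_of_dvd_pow (hn ▸ hrd.trans (Subgroup.index_dvd_of_le le_sup_right)))
    subst hrp
    exact (S.subtype hSM).not_dvd_index
      (hrd.trans (Subgroup.index_dvd_of_le (hSc.trans le_sup_left)))
  have hQp : IsPGroup p (M ⧸ K) := IsPGroup.of_card (n := n) hn
  haveI : Group.IsNilpotent (M ⧸ K) := hQp.isNilpotent
  haveI : Nontrivial (M ⧸ K) := by
    rw [QuotientGroup.nontrivial_iff]
    exact hKtop
  refine (Group.IsSolvable.commutator_lt_top_of_nontrivial (M ⧸ K)).ne ?_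
  have h3 := congrArg (Subgroup.map (QuotientGroup.mk' K)) htop
  rw [Subgroup.map_sup, commutator_def, Subgroup.map_commutator,
    Subgroup.map_top_of_surjective _ (QuotientGroup.mk'_surjective K), ← commutator_def,
    QuotientGroup.map_mk'_self, sup_bot_eq] at h3
  exact h3

/-- Every nontrivial proper subgroup has a nontrivial normal Sylow subgroup. -/
theorem exists_normal_sylow_of_proper [Finite G] (hG : Cfsg.IsMinSimpleOddOrder G)
    (hCN : Cfsg.IsCNGroup G) {X : Subgroup G} (hX : X ≠ ⊤) (hX1 : X ≠ ⊥) :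
    ∃ p : ℕ, ∃ _ : Fact p.Prime, ∃ P : Sylow p X, (P : Subgroup X) ≠ ⊥ ∧ (P : Subgroup X).Normal := by
  haveI := minSimple_solvable hG hX
  haveI : Nontrivial X := (Subgroup.nontrivial_iff_ne_bot X).2 hX1
  obtain ⟨N, p, hNn, hN1, -, hp, hNp, -⟩ := Cfsg.Agent.H19.exists_normal_elementary (G := X)
  haveI : Fact p.Prime := ⟨hp⟩
  by_contra hno
  push Not at hno
  refine not_isBad hG hCN X ⟨hX, ⟨N.map X.subtype, Subgroup.map_subtype_le _,
    fun e => hN1 ((Subgroup.map_eq_bot_iff_of_injective _ X.subtype_injective).1 e), hNp.map _, ?_⟩,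
    fun W hW hWp hWn => ?_⟩
  · have := Subgroup.le_normalizer_map (H := N) X.subtype
    rw [Subgroup.normalizer_eq_top_iff.2 hNn, ← MonoidHom.range_eq_map, Subgroup.range_subtype] at this
    exact this
  · by_contra hd
    let P : Sylow p X := (hWp.comap_of_injective X.subtype X.subtype_injective).toSylow hd
    refine hno p inferInstance P (fun e => hN1 ?_)
      ((Subgroup.normal_subgroupOf_iff_le_normalizer hW).2 hWn)
    exact le_bot_iff.1 (e ▸ (Cfsg.Agent.H19.le_pCore hNn hNp).trans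
      (Cfsg.Agent.H19.pCore_le_sylow P))

/-- A minimal simple CN-group of odd order has no three-step subgroups. -/
theorem not_threeStep [Finite G] (hG : Cfsg.IsMinSimpleOddOrder G) (hCN : Cfsg.IsCNGroup G)
    (X : Subgroup G) (p : ℕ) : ¬ Cfsg.IsThreeStepGroup p X := by
  rintro ⟨hH1, A, hA1, -, -, hAp, hKn, hKtop, ⟨n, hn⟩, hfpf, hfrob⟩
  haveI := hKn
  set H := Cfsg.pCore p X with hH
  haveI hHn : H.Normal := Subgroup.sSup_normal _ (fun _ h => h.1)
  have hX : X ≠ ⊤ := by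
    rintro rfl
    haveI := hG.2.1
    haveI : IsSimpleGroup (⊤ : Subgroup G) := IsSimpleGroup.isSimpleGroup_of_surjective
      (Subgroup.topEquiv (G := G)).symm.toMonoidHom (Subgroup.topEquiv (G := G)).symm.surjective
    rcases Subgroup.Normal.eq_bot_or_eq_top hKn with e | e
    · exact hH1 (le_bot_iff.1 (e ▸ le_sup_left))
    · exact hKtop e
  have hX1 : X ≠ ⊥ := by
    rintro rfl
    exact hH1 (Subsingleton.elim _ _)
  haveI := minSimple_solvable hG hX
  -- elements of `H` have order coprime to `A`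
  have hHcop : ∀ h ∈ H, ∀ a ∈ A, (orderOf a).Coprime (orderOf h) := by
    intro h hh a ha
    have hHpg : IsPGroup p H := by
      refine Cfsg.Agent.H19.sSup_normal_mem (fun N : Subgroup X => IsPGroup p N) IsPGroup.of_bot
        (fun A B hA hB h1 h2 => h1.to_sup_of_normal_left h2)
    obtain ⟨k, hk⟩ := hHpg ⟨h, hh⟩
    exact Nat.Coprime.coprime_dvd_right
      (orderOf_dvd_of_pow_eq_one (by simpa using congrArg Subtype.val hk))
      (Nat.Coprime.pow_right _ (Nat.Coprime.coprime_dvd_left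
        (by rw [← Subgroup.orderOf_mk a ha]; exact orderOf_dvd_natCard _) hAp))
  obtain ⟨a, ha, ha1⟩ := (Subgroup.bot_or_exists_ne_one A).resolve_left hA1
  obtain ⟨h₀, hh₀, hh₀1⟩ := (Subgroup.bot_or_exists_ne_one H).resolve_left hH1
  have key : ∀ b ∈ A, b ≠ 1 → ∀ h ∈ H, Commute b h → h = 1 := fun b hb hb1 h hh hc =>
    Subgroup.mem_bot.1 (hfpf b hb hb1 ▸
      Subgroup.mem_inf.2 ⟨hh, Subgroup.mem_centralizer_singleton_iff.2 hc.symm.eq⟩)
  have hCNX := cn_subgroup hCN X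
  have hnn : ¬ Group.IsNilpotent X := fun h => hh₀1
    (key a ha ha1 h₀ hh₀ (Cfsg.Agent.H55.commute_of_coprime_orderOf h (hHcop h₀ hh₀ a ha)))
  obtain ⟨q, hq, P, hP1, hPn⟩ := exists_normal_sylow_of_proper hG hCN hX hX1
  obtain ⟨-, -, E, hE, -, hEnil, -⟩ := cn_frobenius_of_normal_sylow hCNX hnn P hP1
  set F := Cfsg.fittingHall X with hF
  haveI := hEnil
  haveI : Group.IsNilpotent (X ⧸ F) :=
    Group.nilpotent_of_mulEquiv (hE.symm.QuotientMulEquiv (H := E)).symm
  obtain ⟨hFnil, -⟩ := Cfsg.Agent.H55.fittingHall_spec X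
  -- no element of `A` lies in `F`
  have hAF : ∀ b ∈ A, b ∈ F → b = 1 := by
    intro b hb hbF
    by_contra hb1
    have h1F : h₀ * b * h₀⁻¹ * b⁻¹ ∈ F :=
      F.mul_mem ((inferInstance : F.Normal).conj_mem b hbF h₀) (F.inv_mem hbF)
    have h1H : h₀ * b * h₀⁻¹ * b⁻¹ ∈ H := by
      rw [show h₀ * b * h₀⁻¹ * b⁻¹ = h₀ * (b * h₀⁻¹ * b⁻¹) by group]
      exact H.mul_mem hh₀ (hHn.conj_mem _ (H.inv_mem hh₀) b)
    have h1 := key b hb hb1 _ h1H
      (Cfsg.Agent.H54.commute_of_mem_nilpotent hFnil hbF h1F (hHcop _ h1H b hb))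
    rw [mul_inv_eq_one, mul_inv_eq_iff_eq_mul] at h1
    exact hh₀1 (key b hb hb1 h₀ hh₀ (show Commute b h₀ from h1.symm))
  -- elements of `K` outside `H` are conjugate to elements of `A`
  have hFK : ∀ c ∈ F, c ∈ H ⊔ A → c ∈ H := by
    intro c hcF hcK
    obtain ⟨h', hh', b, hb, rfl⟩ := Subgroup.mem_sup_of_normal_left.1 hcK
    rcases eq_or_ne b 1 with rfl | hb1
    · simpa using hh'
    exfalso
    let φ : H → H := fun h => ⟨(h : X) * b * (h : X)⁻¹ * b⁻¹, by
      rw [show (h : X) * b * (h : X)⁻¹ * b⁻¹ = (h : X) * (b * (h : X)⁻¹ * b⁻¹) by group]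
      exact H.mul_mem h.2 (hHn.conj_mem _ (H.inv_mem h.2) b)⟩
    have hφ : Function.Injective φ := by
      intro u v huv
      have h1 : (u : X) * b * (u : X)⁻¹ * b⁻¹ = (v : X) * b * (v : X)⁻¹ * b⁻¹ :=
        congrArg Subtype.val huv
      have h2 : Commute b ((v : X)⁻¹ * u) := by
        have h3 : (u : X) * b * (u : X)⁻¹ = (v : X) * b * (v : X)⁻¹ := mul_right_cancel h1
        show b * ((v : X)⁻¹ * u) = (v : X)⁻¹ * u * b
        calc b * ((v : X)⁻¹ * u) = (v : X)⁻¹ * ((v : X) * b * (v : X)⁻¹) * u := by group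
          _ = (v : X)⁻¹ * ((u : X) * b * (u : X)⁻¹) * u := by rw [h3]
          _ = (v : X)⁻¹ * u * b := by group
      exact Subtype.ext (inv_mul_eq_one.1 (key b hb hb1 _ (H.mul_mem (H.inv_mem v.2) u.2) h2)).symm
    obtain ⟨u, hu⟩ := Finite.surjective_of_injective hφ ⟨h', hh'⟩
    have hu' : (u : X) * b * (u : X)⁻¹ * b⁻¹ = h' := congrArg Subtype.val hu
    refine hb1 (hAF b hb ?_)
    have h4 := (inferInstance : F.Normal).conj_mem _ hcF (u : X)⁻¹
    rw [← hu'] at h4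
    simpa [mul_assoc] using h4
  -- an element outside `K` commuting with `a` modulo `H`
  obtain ⟨r, hr, hrd⟩ := Nat.exists_prime_and_dvd
    (show (H ⊔ A).index ≠ 1 from fun e => hKtop (Subgroup.index_eq_one.1 e))
  haveI : Fact r.Prime := ⟨hr⟩
  have hrp : r ∣ p := hr.dvd_of_dvd_pow (hn ▸ hrd)
  let R : Sylow r X := default
  obtain ⟨x, hxR, hxK⟩ := Set.not_subset.1 (fun hle : (R : Set X) ⊆ ((H ⊔ A : Subgroup X) : Set X) =>
    R.not_dvd_index (hrd.trans (Subgroup.index_dvd_of_le hle)))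
  obtain ⟨k, hk⟩ := R.2 ⟨x, hxR⟩
  have hcop : (orderOf x).Coprime (orderOf a) := by
    refine Nat.Coprime.coprime_dvd_left
      (orderOf_dvd_of_pow_eq_one (by simpa using congrArg Subtype.val hk))
      (Nat.Coprime.pow_left k ?_)
    exact Nat.Coprime.coprime_dvd_left hrp (Nat.Coprime.coprime_dvd_right
      (by rw [← Subgroup.orderOf_mk a ha]; exact orderOf_dvd_natCard _) hAp.symm)
  have hq' := Cfsg.Agent.H55.commute_of_coprime_orderOf (inferInstance : Group.IsNilpotent (X ⧸ F))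
    ((hcop.coprime_dvd_left (orderOf_map_dvd (QuotientGroup.mk' F) x)).coprime_dvd_right
      (orderOf_map_dvd (QuotientGroup.mk' F) a))
  refine hfrob x hxK a ha ha1 (hFK _ ?_ ?_)
  · refine (QuotientGroup.eq_one_iff _).1 ?_
    show QuotientGroup.mk' F (x * a * x⁻¹ * a⁻¹) = 1
    rw [map_mul, map_mul, map_mul, map_inv, map_inv, hq'.eq, mul_inv_cancel_right, mul_inv_cancel]
  · exact (H ⊔ A).mul_mem (hKn.conj_mem a (Subgroup.mem_sup_right ha) x)
      ((H ⊔ A).inv_mem (Subgroup.mem_sup_right ha))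

end Cfsg.Agent.H54
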