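import Mathlib
import Cfsg.Prelude.Def_OddOrder
import Cfsg.Prelude.Def_OddOrderLocal
import Cfsg.Agent.H55.FittingBasics
import Cfsg.Agent.H54.BenderLocal
import Cfsg.Agent.H54.CNNoThreeStep

/-!
Uniqueness of the maximal subgroup over a large piece of a composite Fitting subgroup.
-/

set_option autoImplicit false
set_option linter.style.haveILetI false
open scoped Pointwise

namespace Cfsg.Agent.H54

variable {G : Type*} [Group G] [Finite G]

/-- A nontrivial nilpotent subgroup normalized by a maximal subgroup has it as normalizer. -/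
theorem normalizer_eq_of_coatom (hG : Cfsg.IsMinSimpleOddOrder G) {H N : Subgroup G}
    (hH : IsCoatom H) (hN : Group.IsNilpotent N) (hN1 : N ≠ ⊥)
    (h : H ≤ Subgroup.normalizer (N : Set G)) : Subgroup.normalizer (N : Set G) = H := by
  by_contra hne
  exact minSimple_normalizer_ne_top hG hN1 hN (hH.2 _ (lt_of_le_of_ne h (Ne.symm hne)))

omit [Finite G] in
/-- Centralizers lie in normalizers. -/
theorem centralizer_le_normalizer (N : Subgroup G) :
    Subgroup.centralizer (N : Set G) ≤ Subgroup.normalizer (N : Set G) :=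
  Cfsg.Agent.H20.le_normalizer_of_le_centralizer le_rfl

variable {H L : Subgroup G}

/-- The normalizer of the primary parts of `Z(F(H))`. -/
theorem normalizer_zpart (hG : Cfsg.IsMinSimpleOddOrder G) (hH : IsCoatom H) {p : ℕ} [Fact p.Prime]
    (hp : p ∣ Nat.card (Cfsg.fittingOf H)) :
    Subgroup.normalizer (pPart p (zFitting H) : Set G) = H :=
  normalizer_eq_of_coatom hG hH (pPart_isPGroup p _).isNilpotent
    (pPart_ne_bot (zFitting_nilpotent H) (prime_dvd_zFitting hp))
    ((le_normalizer_zFitting H).trans (normalizer_le_normalizer_pPart p _))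

/-- `Z(F(H))_s` centralizes `F(L)_p` for `s ≠ p`. -/
theorem zpart_le_centralizer_pPart (hG : Cfsg.IsMinSimpleOddOrder G) (hH : IsCoatom H)
    (hZL : zFitting H ≤ L) {p s : ℕ} [Fact p.Prime] [Fact s.Prime] (hps : s ≠ p)
    (hp : p ∣ Nat.card (Cfsg.fittingOf H)) (hs : s ∣ Nat.card (Cfsg.fittingOf H)) :
    pPart s (zFitting H) ≤ Subgroup.centralizer (pPart p (Cfsg.fittingOf L) : Set G) := by
  set E := pPart p (Cfsg.fittingOf L) with hE
  have hLE : L ≤ Subgroup.normalizer (E : Set G) :=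
    (le_normalizer_fittingOf L).trans (normalizer_le_normalizer_pPart p _)
  refine Cfsg.Agent.H20.p_times_q (P := pPart p (zFitting H)) (pPart_isPGroup p _) ?_
    (pPart_isPGroup p _) ?_ ((pPart_le _ _).trans (hZL.trans hLE))
    ((pPart_le _ _).trans (hZL.trans hLE)) ?_
  · obtain ⟨k, hk⟩ := IsPGroup.iff_card.1 (pPart_isPGroup s (zFitting H))
    rw [hk]
    exact ((Nat.coprime_primes Fact.out Fact.out).2 hps).pow_left k
  · intro a ha b hb
    exact (commute_pPart hps (zFitting_nilpotent H) hb ha).eq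
  · rintro c ⟨hcE, hcC⟩ z hz
    have hcH : c ∈ H := (normalizer_zpart hG hH hp).le (centralizer_le_normalizer _ hcC)
    have h1 : c * z * c⁻¹ * z⁻¹ ∈ pPart s (zFitting H) :=
      Subgroup.mul_mem _ ((Subgroup.mem_normalizer_iff.1
        ((normalizer_zpart hG hH hs).ge hcH) z).1 hz) (Subgroup.inv_mem _ hz)
    have h2 : c * z * c⁻¹ * z⁻¹ ∈ E := by
      rw [show c * z * c⁻¹ * z⁻¹ = c * (z * c⁻¹ * z⁻¹) by group]
      exact E.mul_mem hcE ((Subgroup.mem_normalizer_iff.1 (hLE (hZL (pPart_le _ _ hz))) _).1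
        (E.inv_mem hcE))
    have h3 : c * z * c⁻¹ * z⁻¹ = 1 := orderOf_eq_one_iff.1 (Nat.eq_one_of_dvd_coprimes
      (card_pPart_coprime hps (zFitting H) (Cfsg.fittingOf L))
      (by rw [← Subgroup.orderOf_mk _ h1]; exact orderOf_dvd_natCard _)
      (by rw [← Subgroup.orderOf_mk _ h2]; exact orderOf_dvd_natCard _))
    rw [mul_inv_eq_one, mul_inv_eq_iff_eq_mul] at h3
    exact h3.symm

/-- If `O_{π'}(L) = 1`, every prime of `F(L)` is in `π`. -/
theorem dvd_of_piCoreOf_eq_bot {n : ℕ}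
    (hO : Cfsg.piCoreOf (Cfsg.primesNotDvd n) L = ⊥) {r : ℕ} [Fact r.Prime]
    (hr : r ∣ Nat.card (Cfsg.fittingOf L)) : r ∣ n := by
  by_contra hn
  have h1 : pPart r (Cfsg.fittingOf L) ≤ ⊥ := hO ▸ Cfsg.Agent.H55.le_piCoreOf
    ((pPart_le _ _).trans (fittingOf_le L))
    ((le_normalizer_fittingOf L).trans (normalizer_le_normalizer_pPart r _))
    (fun q hq hd => by
      obtain ⟨k, hk⟩ := IsPGroup.iff_card.1 (pPart_isPGroup r (Cfsg.fittingOf L))
      rw [hk] at hd
      rw [(Nat.prime_dvd_prime_iff_eq hq Fact.out).1 (hq.dvd_of_dvd_pow hd)]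
      exact ⟨Fact.out, hn⟩)
  exact pPart_ne_bot (fittingOf_nilpotent L) hr (le_bot_iff.1 h1)

/-- First step: `F(L) ≤ H`, and `F(L)` has all the primes of `F(H)`. -/
theorem fitting_le_and_primes (hG : Cfsg.IsMinSimpleOddOrder G) (hH : IsCoatom H) (hL : IsCoatom L)
    (hF2 : 2 ≤ (Nat.card (Cfsg.fittingOf H)).primeFactors.card) (hZL : zFitting H ≤ L)
    (hO : Cfsg.piCoreOf (Cfsg.primesNotDvd (Nat.card (Cfsg.fittingOf H))) L = ⊥) :
    Cfsg.fittingOf L ≤ H ∧
      (Nat.card (Cfsg.fittingOf L)).primeFactors = (Nat.card (Cfsg.fittingOf H)).primeFactors := by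
  set F := Cfsg.fittingOf H with hF
  set E := Cfsg.fittingOf L with hE
  have hEn : Group.IsNilpotent E := fittingOf_nilpotent L
  refine ⟨le_of_pParts hEn fun p _ hp => ?_, ?_⟩
  · have hpF : p ∣ Nat.card F := dvd_of_piCoreOf_eq_bot hO hp
    obtain ⟨s, hs, hsp⟩ := Finset.exists_mem_ne (show 1 < (Nat.card F).primeFactors.card by omega) p
    haveI : Fact s.Prime := ⟨Nat.prime_of_mem_primeFactors hs⟩
    have hsF := Nat.dvd_of_mem_primeFactors hs
    have h := zpart_le_centralizer_pPart hG hH hZL hsp hpF hsF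
    refine le_trans (le_trans ?_ (centralizer_le_normalizer _)) (normalizer_zpart hG hH hsF).le
    exact fun x hx z hz => ((h hz) x hx).symm
  · ext r
    simp only [Nat.mem_primeFactors, ne_eq, Nat.card_pos.ne', not_false_eq_true, and_true]
    refine ⟨fun ⟨hr, hd⟩ => ⟨hr, by haveI := Fact.mk hr; exact dvd_of_piCoreOf_eq_bot hO hd⟩,
      fun ⟨hr, hd⟩ => ⟨hr, ?_⟩⟩
    haveI := Fact.mk hr
    by_contra hrE
    have hcen : E ≤ Subgroup.centralizer (pPart r (zFitting H) : Set G) :=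
      le_of_pParts hEn fun p _ hp x hx z hz =>
        ((zpart_le_centralizer_pPart hG hH hZL (fun e : r = p => hrE (e.symm ▸ hp))
          (dvd_of_piCoreOf_eq_bot hO hp) hd hz) x hx).symm
    have hZE : pPart r (zFitting H) ≤ E :=
      le_trans (le_inf ((pPart_le _ _).trans hZL) (show pPart r (zFitting H) ≤
          Subgroup.centralizer (E : Set G) from fun z hz x hx => (hcen hx z hz).symm))
        (Cfsg.Agent.H55.inf_centralizer_fittingOf_le (minSimple_solvable hG hL.1))
    exact hrE ((prime_dvd_of_pPart_ne_bot (M := pPart r (zFitting H)) (p := r) (by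
        intro e
        exact pPart_ne_bot (zFitting_nilpotent H) (prime_dvd_zFitting hd) (le_bot_iff.1
          (e ▸ le_pPart (pPart_isPGroup r _).isNilpotent (pPart_isPGroup r _) le_rfl)))).trans
      (Subgroup.card_dvd_of_le hZE))

/-- Second step: `F(H) ≤ F(L)`. -/
theorem fitting_le_fitting (hG : Cfsg.IsMinSimpleOddOrder G) (hH : IsCoatom H) (hL : IsCoatom L)
    (hF2 : 2 ≤ (Nat.card (Cfsg.fittingOf H)).primeFactors.card)
    (hFL : Cfsg.fittingOf H ≤ L)
    (hO : Cfsg.piCoreOf (Cfsg.primesNotDvd (Nat.card (Cfsg.fittingOf H))) L = ⊥) :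
    Cfsg.fittingOf H ≤ Cfsg.fittingOf L := by
  set F := Cfsg.fittingOf H with hF
  have hFn : Group.IsNilpotent F := fittingOf_nilpotent H
  haveI := minSimple_solvable hG hL.1
  have hHFp : ∀ r, H ≤ Subgroup.normalizer (pPart r F : Set G) := fun r =>
    (le_normalizer_fittingOf H).trans (normalizer_le_normalizer_pPart r F)
  have hCZ : ∀ r : ℕ, ∀ _ : Fact r.Prime, r ∣ Nat.card F →
      Subgroup.centralizer (pPart r (zFitting H) : Set G) ≤ H := fun r _ hr =>
    (centralizer_le_normalizer _).trans (normalizer_zpart hG hH hr).le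
  have key : ∀ r s : ℕ, ∀ _ : Fact r.Prime, ∀ _ : Fact s.Prime, r ≠ s → r ∣ Nat.card F →
      pPart s F ≤ Cfsg.Agent.H55.ppCoreOf r L := by
    intro r s _ _ hrs hr
    have hZF : pPart r (zFitting H) ≤ pPart r F :=
      le_pPart hFn (pPart_isPGroup r _) ((pPart_le _ _).trans inf_le_left)
    refine Cfsg.Agent.H55.le_ppCoreOf_of_centralizer (B := pPart r (zFitting H))
      (minSimple_solvable hG hL.1) ((pPart_le _ _).trans hFL) ?_
      ((pPart_le _ _).trans (inf_le_left.trans hFL)) (pPart_isPGroup r _) ?_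
      (inf_le_right.trans ((hCZ r inferInstance hr).trans (hHFp s)))
    · obtain ⟨k, hk⟩ := IsPGroup.iff_card.1 (pPart_isPGroup s F)
      rw [hk]
      exact ((Nat.coprime_primes Fact.out Fact.out).2 (Ne.symm hrs)).pow_left k
    · intro x hx z hz
      exact (commute_pPart hrs hFn (hZF hz) hx).eq
  refine le_of_pParts hFn fun s _ hs => ?_
  have hsmem : s ∈ (Nat.card F).primeFactors := Nat.mem_primeFactors.2 ⟨Fact.out, hs, Nat.card_pos.ne'⟩
  obtain ⟨r, hr, hrs⟩ := Finset.exists_mem_ne (show 1 < (Nat.card F).primeFactors.card by omega) s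
  haveI : Fact r.Prime := ⟨Nat.prime_of_mem_primeFactors hr⟩
  have hrF := Nat.dvd_of_mem_primeFactors hr
  -- `N s = ⋂_{t ≠ s} O_{t'}(L)`
  set N : ℕ → Subgroup G := fun s => L ⊓ ⨅ t : {t : ℕ // t.Prime ∧ t ≠ s ∧ t ∣ Nat.card F},
    Cfsg.Agent.H55.ppCoreOf t.1 L with hN
  have hNle : ∀ u, N u ≤ L := fun u => inf_le_left
  have hNn : ∀ u, L ≤ Subgroup.normalizer (N u : Set G) := by
    intro u g hg
    rw [Subgroup.mem_normalizer_iff]
    intro y
    simp only [hN, Subgroup.mem_inf, Subgroup.mem_iInf]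
    exact and_congr (Subgroup.mem_normalizer_iff.1 (Subgroup.le_normalizer hg) y)
      (forall_congr' fun t => Subgroup.mem_normalizer_iff.1
        (Cfsg.Agent.H55.le_normalizer_piCoreOf _ L hg) y)
  have hFN : ∀ u : ℕ, ∀ _ : Fact u.Prime, pPart u F ≤ N u := by
    intro u _
    refine le_inf ((pPart_le _ _).trans hFL) (le_iInf fun t => ?_)
    haveI : Fact t.1.Prime := ⟨t.2.1⟩
    exact key t.1 u inferInstance inferInstance t.2.2.1 t.2.2.2
  have hdisj : N r ⊓ N s = ⊥ := by
    rw [← le_bot_iff, ← hO]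
    refine Cfsg.Agent.H55.le_piCoreOf_of_forall (inf_le_left.trans (hNle r)) fun t ht htF => ?_
    rcases eq_or_ne t r with rfl | htr
    · exact inf_le_right.trans (inf_le_right.trans
        (iInf_le (fun t : {t : ℕ // t.Prime ∧ t ≠ s ∧ t ∣ Nat.card F} =>
          Cfsg.Agent.H55.ppCoreOf t.1 L) ⟨t, ht, hrs, htF⟩))
    · exact inf_le_left.trans (inf_le_right.trans
        (iInf_le (fun t : {t : ℕ // t.Prime ∧ t ≠ r ∧ t ∣ Nat.card F} =>
          Cfsg.Agent.H55.ppCoreOf t.1 L) ⟨t, ht, htr, htF⟩))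
  have hNH : N s ≤ H := by
    refine le_trans ?_ (hCZ r inferInstance hrF)
    intro x hx z hz
    have hzN : z ∈ N r := hFN r inferInstance (le_pPart hFn (pPart_isPGroup r _)
      ((pPart_le _ _).trans inf_le_left) hz)
    have h1 : z * x * z⁻¹ * x⁻¹ ∈ N r ⊓ N s :=
      ⟨by
        rw [show z * x * z⁻¹ * x⁻¹ = z * (x * z⁻¹ * x⁻¹) by group]
        exact (N r).mul_mem hzN ((Subgroup.mem_normalizer_iff.1 (hNn r (hNle s hx)) _).1
          ((N r).inv_mem hzN)),
        (N s).mul_mem ((Subgroup.mem_normalizer_iff.1 (hNn s (hNle r hzN)) x).1 hx)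
          ((N s).inv_mem hx)⟩
    rw [hdisj, Subgroup.mem_bot, mul_inv_eq_one, mul_inv_eq_iff_eq_mul] at h1
    exact h1
  haveI := Cfsg.Agent.H19.fitting_characteristic (N s)
  have h2 : pPart s F ≤ Cfsg.fittingOf (N s) :=
    le_fittingOf (pPart_isPGroup s F).isNilpotent (hFN s inferInstance) (hNH.trans (hHFp s))
  exact h2.trans (le_fittingOf (fittingOf_nilpotent _) ((fittingOf_le _).trans (hNle s))
    ((hNn s).trans (Cfsg.Agent.H55.normalizer_le_normalizer_char (N s)
      (Cfsg.fittingSubgroup (N s)))))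

omit [Finite G] in
/-- Maximal subgroups in which `M` has no invariant `π'`-subgroup. -/
theorem piCoreOf_eq_bot_of_inv {π : Set ℕ} [Finite G] {M X : Subgroup G} (hMX : M ≤ X)
    (hinv : ∀ Y ∈ Cfsg.invSubgroups ⊤ M π, Y = ⊥) : Cfsg.piCoreOf π X = ⊥ :=
  hinv _ ⟨le_top, Cfsg.Agent.H55.piCoreOf_piDvd π X,
    hMX.trans (Cfsg.Agent.H55.le_normalizer_piCoreOf π X)⟩

/-- `H` is the only maximal subgroup containing `M`. -/
theorem unique_maximal (hG : Cfsg.IsMinSimpleOddOrder G) (hH : IsCoatom H)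
    (hF2 : 2 ≤ (Nat.card (Cfsg.fittingOf H)).primeFactors.card)
    {M : Subgroup G} (hM : M ≤ Cfsg.fittingOf H) (hZM : zFitting H ≤ M)
    (hinv : ∀ Y ∈ Cfsg.invSubgroups ⊤ M (Cfsg.primesNotDvd (Nat.card (Cfsg.fittingOf H))), Y = ⊥)
    (hL : IsCoatom L) (hML : M ≤ L) : L = H := by
  have hOL := piCoreOf_eq_bot_of_inv hML hinv
  have hOH := piCoreOf_eq_bot_of_inv (hM.trans (fittingOf_le H)) hinv
  obtain ⟨hEH, hπ⟩ := fitting_le_and_primes hG hH hL hF2 (hZM.trans hML) hOL
  have hpr : Cfsg.primesNotDvd (Nat.card (Cfsg.fittingOf L)) =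
      Cfsg.primesNotDvd (Nat.card (Cfsg.fittingOf H)) := by
    ext r
    have h := Finset.ext_iff.1 hπ r
    simp only [Nat.mem_primeFactors, ne_eq, Nat.card_pos.ne', not_false_eq_true, and_true] at h
    exact and_congr_right fun hr => not_congr (by simpa [hr] using h)
  rw [← hπ] at hF2
  rw [← hpr] at hOH
  obtain ⟨hFL, -⟩ := fitting_le_and_primes hG hL hH hF2 (inf_le_left.trans hEH) hOH
  have hFE : Cfsg.fittingOf H = Cfsg.fittingOf L :=
    le_antisymm (fitting_le_fitting hG hH hL (hπ ▸ hF2) hFL hOL)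
      (fitting_le_fitting hG hL hH hF2 hEH hOH)
  have hne : Cfsg.fittingOf H ≠ ⊥ := by
    intro e
    rw [← hFE, e, Subgroup.card_bot] at hF2
    simp at hF2
  have hLH : L ≤ H := by
    rw [← normalizer_eq_of_coatom hG hH (fittingOf_nilpotent H) hne (le_normalizer_fittingOf H), hFE]
    exact le_normalizer_fittingOf L
  by_contra h
  exact hH.1 (hL.2 H (lt_of_le_of_ne hLH h))

end Cfsg.Agent.H54
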