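import Mathlib
import Cfsg.Prelude.Def_OddOrderLocal
import Cfsg.Agent.H19.SchurZassenhaus
import Cfsg.Agent.H22.FocalTransfer
import Cfsg.Agent.H54.CNMaxNilpotent
import Cfsg.Agent.H54.CNNoThreeStep

/-!
Maximal subgroups and maximal nilpotent subgroups of minimal simple CN-groups of odd order.
-/

set_option autoImplicit false
set_option linter.style.haveILetI false
open scoped Pointwise

namespace Cfsg.Agent.H54

variable {G : Type*} [Group G]

/-- Distinct Sylow subgroups of a minimal simple CN-group of odd order meet trivially. -/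
theorem sylow_inf_eq_bot [Finite G] (hG : Cfsg.IsMinSimpleOddOrder G) (hCN : Cfsg.IsCNGroup G)
    {p : ℕ} [Fact p.Prime] {S₁ S₂ : Sylow p G} (h : S₁ ≠ S₂) :
    (S₁ : Subgroup G) ⊓ S₂ = ⊥ := by
  by_contra hne
  suffices key : ∀ (n : ℕ) (S₁ S₂ : Sylow p G), (S₁ : Subgroup G) ⊓ S₂ ≠ ⊥ →
      Nat.card G - Nat.card ((S₁ : Subgroup G) ⊓ S₂ : Subgroup G) = n → S₁ = S₂ from
    h (key _ S₁ S₂ hne rfl)
  intro n
  induction n using Nat.strong_induction_on with
  | _ n ih =>
  intro S₁ S₂ hne hn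
  by_contra h12
  set Q := (S₁ : Subgroup G) ⊓ S₂ with hQ
  have hQp : IsPGroup p Q := S₁.2.to_le inf_le_left
  have hQ1 : Q < (S₁ : Subgroup G) := lt_of_le_of_ne inf_le_left fun e =>
    h12 (Sylow.ext (S₁.3 S₂.2 (e ▸ inf_le_right)).symm)
  have hQ2 : Q < (S₂ : Subgroup G) := lt_of_le_of_ne inf_le_right fun e =>
    h12 (Sylow.ext (S₂.3 S₁.2 (e ▸ inf_le_left)))
  set N := Subgroup.normalizer (Q : Set G) with hN
  have hN' : N ≠ ⊤ := minSimple_normalizer_ne_top hG hne hQp.isNilpotent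
  obtain ⟨W, hW, hWp, hWn, hd⟩ := (sylowOf_normal_or_bad hN' Subgroup.le_normalizer hne hQp le_rfl
    ).resolve_left (not_isBad hG hCN N)
  obtain ⟨S₃, hS₃⟩ := hWp.exists_le_sylow
  have step : ∀ S : Sylow p G, Q < (S : Subgroup G) → S = S₃ := by
    intro S hlt
    have hle : (S : Subgroup G) ⊓ N ≤ (S₃ : Subgroup G) :=
      (le_of_normal_sylowOf hW hWp hWn hd (S.2.to_le inf_le_left) inf_le_right).trans hS₃
    have h3 : Q < (S : Subgroup G) ⊓ S₃ :=
      lt_of_lt_of_le (Cfsg.Agent.H22.lt_inf_normalizer_of_lt S.2 hlt) (le_inf inf_le_left hle)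
    have h4 : Nat.card Q < Nat.card ((S : Subgroup G) ⊓ S₃ : Subgroup G) :=
      Set.Finite.card_lt_card (Set.toFinite _) h3
    have h5 := Subgroup.card_le_card_group ((S : Subgroup G) ⊓ S₃ : Subgroup G)
    refine ih _ (by omega) S S₃ (fun e => ?_) rfl
    rw [e] at h3
    exact not_lt_bot h3
  exact h12 ((step S₁ hQ1).trans (step S₂ hQ2).symm)

/-- Maximal nilpotent subgroups are TI. -/
theorem IsMaxNilp.isTI [Finite G] (hG : Cfsg.IsMinSimpleOddOrder G) (hCN : Cfsg.IsCNGroup G)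
    {H : Subgroup G} (hH : IsMaxNilp H) : IsTIConj H := by
  by_cases h : IsPrimePow (Nat.card H)
  swap
  · exact hH.isTIConj hCN h
  obtain ⟨p, k, hp, hk, hpk⟩ := (isPrimePow_nat_iff _).1 h
  haveI : Fact p.Prime := ⟨hp⟩
  obtain ⟨S, hS⟩ := hH.sylow_le hCN (p := p) (hpk ▸ dvd_pow_self p hk.ne')
  have hHS : H = (S : Subgroup G) := S.3 (IsPGroup.iff_card.2 ⟨k, hpk.symm⟩) hS
  intro g hne
  subst hHS
  exact sylow_inf_eq_bot hG hCN (S₁ := S) (S₂ := g • S) fun e =>
    hne (congrArg (fun T : Sylow p G => (T : Subgroup G)) e).symm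

/-- Centralizers of non-identity elements of a maximal nilpotent subgroup stay inside. -/
theorem IsMaxNilp.centralizer_le' [Finite G] (hG : Cfsg.IsMinSimpleOddOrder G)
    (hCN : Cfsg.IsCNGroup G) {H : Subgroup G} (hH : IsMaxNilp H) {x : G} (hx : x ∈ H) (hx1 : x ≠ 1) :
    Subgroup.centralizer ({x} : Set G) ≤ H :=
  hH.centralizer_le hCN hx hx1 (Or.inr (hH.isTI hG hCN))

/-- A nilpotent nontrivial subgroup has a nontrivial central element. -/
theorem exists_central_ne_one [Finite G] {H : Subgroup G} (hH : Group.IsNilpotent H) (h1 : H ≠ ⊥) :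
    ∃ z ∈ H, z ≠ 1 ∧ ∀ h ∈ H, Commute z h := by
  haveI : Nontrivial H := (Subgroup.nontrivial_iff_ne_bot H).2 h1
  obtain ⟨r, hr, hrd⟩ := Nat.exists_prime_and_dvd (Finite.one_lt_card (α := H)).ne'
  haveI : Fact r.Prime := ⟨hr⟩
  obtain ⟨z, hzH, hz, hzc⟩ := exists_central_of_dvd hH hrd
  exact ⟨z, hzH, fun e => hr.one_lt.ne (by rw [← hz, e, orderOf_one]), hzc⟩

/-- Maximal nilpotent subgroups meeting nontrivially are equal. -/
theorem IsMaxNilp.eq_of_mem [Finite G] (hG : Cfsg.IsMinSimpleOddOrder G) (hCN : Cfsg.IsCNGroup G)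
    {H K : Subgroup G} (hH : IsMaxNilp H) (hK : IsMaxNilp K) {x : G} (hxH : x ∈ H) (hxK : x ∈ K)
    (hx1 : x ≠ 1) : H = K := by
  obtain ⟨z, hzH, hz1, hzc⟩ := exists_central_ne_one hH.1
    (fun e => hx1 (Subgroup.mem_bot.1 (e ▸ hxH)))
  have hzK : z ∈ K := hK.centralizer_le' hG hCN hxK hx1
    (Subgroup.mem_centralizer_singleton_iff.2 (hzc x hxH).eq)
  exact (hH.2 K hK.1 (hH.centralizer_eq hCN hz1 hzc ▸ hK.centralizer_le' hG hCN hzK hz1)).symm

/-- Maximal nilpotent subgroups are not self-normalizing. -/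
theorem IsMaxNilp.normalizer_ne [Finite G] (hG : Cfsg.IsMinSimpleOddOrder G)
    (hCN : Cfsg.IsCNGroup G) {H : Subgroup G} (hH : IsMaxNilp H) :
    Subgroup.normalizer (H : Set G) ≠ H := by
  intro hN
  haveI := minSimple_nontrivial hG
  have hcomm : H ≤ ⁅H, H⁆ := by
    refine le_of_sylow_le fun r _ R => ?_
    by_cases hrd : r ∣ Nat.card H
    swap
    · have hR0 : (R : Subgroup H) = ⊥ := by
        obtain ⟨k, hk⟩ := IsPGroup.iff_card.1 R.2
        rcases k with _ | k
        · exact Subgroup.card_eq_one.1 (by rw [hk, pow_zero])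
        · exact absurd (((dvd_pow_self r k.succ_ne_zero).trans hk.symm.dvd).trans
            (Subgroup.card_subgroup_dvd_card (R : Subgroup H))) hrd
      rw [hR0, Subgroup.map_bot]; exact bot_le
    obtain ⟨S, hS⟩ := hH.sylow_le hCN (p := r) hrd
    haveI := hH.1
    letI := Sylow.unique_of_normal R (normal_sylow_of_nilpotent R)
    have hR : (R : Subgroup H).map H.subtype = (S : Subgroup G) := by
      rw [Subsingleton.elim R (S.subtype hS), Sylow.coe_subtype, Subgroup.subgroupOf_map_subtype,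
        inf_of_le_left hS]
    have h1 := Cfsg.Agent.H22.commutator_inf_sylow_of_controls S H hS (by
      intro x hx g hg
      rcases eq_or_ne x 1 with rfl | hx1
      · exact ⟨1, one_mem _, by simp⟩
      refine ⟨g, ?_, rfl⟩
      have hK := hH.map (MulAut.conj g)
      have hne : g * x * g⁻¹ ≠ 1 := fun e => hx1 (by
        simpa [mul_assoc] using congrArg (fun t => g⁻¹ * t * g) e)
      have heq := hH.eq_of_mem hG hCN hK (hS hg) ⟨x, hS hx, rfl⟩ hne
      refine hN.le (Subgroup.mem_normalizer_iff.2 fun h => ⟨fun hh => heq.ge ⟨h, hh, rfl⟩, fun hh => ?_⟩)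
      obtain ⟨h', hh', he⟩ := heq.le hh
      have : h' = h := (MulAut.conj g).injective he
      exact this ▸ hh')
    rw [minSimple_commutator hG, top_inf_eq] at h1
    rw [hR]
    exact h1.le.trans inf_le_left
  haveI := hH.1
  haveI : Nontrivial H := (Subgroup.nontrivial_iff_ne_bot H).2 hH.ne_bot
  refine (Group.IsSolvable.commutator_lt_top_of_nontrivial H).ne ?_
  refine Subgroup.map_injective H.subtype_injective ?_
  rw [Subgroup.map_subtype_commutator, ← MonoidHom.range_eq_map, Subgroup.range_subtype]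
  exact le_antisymm (Subgroup.commutator_le.2 fun a ha b hb =>
    H.mul_mem (H.mul_mem (H.mul_mem ha hb) (H.inv_mem ha)) (H.inv_mem hb)) hcomm

/-- Maximal subgroups are nontrivial. -/
theorem maximal_ne_bot [Finite G] (hG : Cfsg.IsMinSimpleOddOrder G) {M : Subgroup G}
    (hM : IsCoatom M) : M ≠ ⊥ := by
  rintro rfl
  haveI := minSimple_nontrivial hG
  obtain ⟨x, hx⟩ := exists_ne (1 : G)
  have h1 : Subgroup.zpowers x = ⊤ :=
    hM.2 _ (bot_lt_iff_ne_bot.2 fun e => hx (Subgroup.zpowers_eq_bot.1 e))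
  refine minSimple_not_nilpotent hG ?_
  haveI := isNilpotent_zpowers x
  haveI : Group.IsNilpotent (⊤ : Subgroup G) := h1 ▸ isNilpotent_zpowers x
  exact Group.nilpotent_of_mulEquiv Subgroup.topEquiv

/-- Maximal subgroups are self-normalizing. -/
theorem maximal_normalizer_eq [Finite G] (hG : Cfsg.IsMinSimpleOddOrder G) {M : Subgroup G}
    (hM : IsCoatom M) : Subgroup.normalizer (M : Set G) = M := by
  rcases eq_or_ne (Subgroup.normalizer (M : Set G)) ⊤ with h | h
  · haveI := hG.2.1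
    rcases Subgroup.Normal.eq_bot_or_eq_top (H := M) (Subgroup.normalizer_eq_top_iff.1 h) with e | e
    · exact absurd e (maximal_ne_bot hG hM)
    · exact absurd e hM.1
  · by_contra hne
    exact h (hM.2 _ (lt_of_le_of_ne Subgroup.le_normalizer (Ne.symm hne)))

/-- Structure of a maximal subgroup. -/
theorem maximal_structure [Finite G] (hG : Cfsg.IsMinSimpleOddOrder G) (hCN : Cfsg.IsCNGroup G)
    {M : Subgroup G} (hM : IsCoatom M) :
    IsMaxNilp (Cfsg.fittingHallOf M) ∧ Subgroup.normalizer (Cfsg.fittingHallOf M : Set G) = M ∧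
      ∃ E : Subgroup G, Cfsg.IsComplIn (Cfsg.fittingHallOf M) E M ∧ E ≠ ⊥ ∧
        (Nat.card E).Coprime (Nat.card (Cfsg.fittingHallOf M)) ∧
        ∀ e ∈ E, e ≠ 1 → Cfsg.fittingHallOf M ⊓ Subgroup.centralizer ({e} : Set G) = ⊥ := by
  have hM1 := maximal_ne_bot hG hM
  have hnn : ¬ Group.IsNilpotent M := by
    intro hn
    refine (IsMaxNilp.normalizer_ne hG hCN (H := M) ⟨hn, fun L hL hle => ?_⟩)
      (maximal_normalizer_eq hG hM)
    by_contra hne
    have := hM.2 L (lt_of_le_of_ne hle (Ne.symm hne))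
    subst this
    haveI := hL
    exact minSimple_not_nilpotent hG (Group.nilpotent_of_mulEquiv Subgroup.topEquiv)
  haveI := minSimple_solvable hG hM.1
  obtain ⟨p, hp, P, hP1, hPn⟩ := exists_normal_sylow_of_proper hG hCN hM.1 hM1
  obtain ⟨hF1, -, E, hE, -, -, hfpf⟩ :=
    cn_frobenius_of_normal_sylow (cn_subgroup hCN M) hnn P hP1
  obtain ⟨hFn, hFc⟩ := Cfsg.Agent.H55.fittingHall_spec M
  set F := Cfsg.fittingHall M with hF
  set K := Cfsg.fittingHallOf M with hK
  have hKM : K ≤ M := Subgroup.map_subtype_le _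
  have hK1 : K ≠ ⊥ := fun e =>
    hF1 ((Subgroup.map_eq_bot_iff_of_injective _ M.subtype_injective).1 e)
  have hKn : Group.IsNilpotent K := by
    haveI := hFn
    exact Group.nilpotent_of_mulEquiv (F.equivMapOfInjective _ M.subtype_injective)
  have hMN : M ≤ Subgroup.normalizer (K : Set G) := by
    have h := Subgroup.le_normalizer_map (H := F) M.subtype
    rw [Subgroup.normalizer_eq_top F, ← MonoidHom.range_eq_map, Subgroup.range_subtype] at h
    exact h
  have hNK : Subgroup.normalizer (K : Set G) = M := by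
    by_contra hne
    exact minSimple_normalizer_ne_top hG hK1 hKn (hM.2 _ (lt_of_le_of_ne hMN (Ne.symm hne)))
  have hfpf' : ∀ e ∈ E.map M.subtype, e ≠ 1 → K ⊓ Subgroup.centralizer ({e} : Set G) = ⊥ := by
    rintro _ ⟨e, he, rfl⟩ he1
    rw [eq_bot_iff]
    rintro _ ⟨⟨f, hf, rfl⟩, hc⟩
    have h1 : f ∈ F ⊓ Subgroup.centralizer ({e} : Set M) :=
      ⟨hf, Subgroup.mem_centralizer_singleton_iff.2
        (Subtype.ext (Subgroup.mem_centralizer_singleton_iff.1 hc))⟩
    rw [hfpf e he (fun h => he1 (by rw [h, map_one]))] at h1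
    rw [Subgroup.mem_bot.1 h1, map_one]
    exact one_mem _
  have hcop : (Nat.card (E.map M.subtype)).Coprime (Nat.card K) := by
    rw [hK, Cfsg.fittingHallOf, Subgroup.card_map_of_injective M.subtype_injective,
      Subgroup.card_map_of_injective M.subtype_injective,
      Cfsg.Agent.H19.card_eq_index_of_isComplement' hE]
    exact hFc.symm
  have hcompl : Cfsg.IsComplIn K (E.map M.subtype) M := by
    refine ⟨hKM, Subgroup.map_subtype_le _, ?_, fun m hm => ?_⟩
    · rw [hK, Cfsg.fittingHallOf, ← Subgroup.map_inf _ _ _ M.subtype_injective, hE.disjoint.eq_bot,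
        Subgroup.map_bot]
    · obtain ⟨f, hf, e, he, h⟩ := Cfsg.Agent.H19.exists_mul_of_sup_eq_top hE.sup_eq_top (⟨m, hm⟩ : M)
      exact ⟨f, ⟨f, hf, rfl⟩, e, ⟨e, he, rfl⟩, congrArg Subtype.val h⟩
  refine ⟨⟨hKn, fun L hL hle => ?_⟩, hNK, E.map M.subtype, hcompl,
    fun e => ?_, hcop, hfpf'⟩
  · have hLM : L ⊓ M ≤ K := by
      rintro y ⟨hyL, hyM⟩
      obtain ⟨a, ha, b, hb, rfl⟩ := hcompl.2.2.2 y hyM
      rcases eq_or_ne b 1 with rfl | hb1
      · simpa using ha
      exfalso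
      obtain ⟨k, hk, hk1⟩ := (Subgroup.bot_or_exists_ne_one K).resolve_left hK1
      have hbL : b ∈ L := by simpa using L.mul_mem (L.inv_mem (hle ha)) hyL
      have hc := commute_of_mem_nilpotent hL (hle hk) hbL
        ((hcop.symm.coprime_dvd_left (by rw [← Subgroup.orderOf_mk k hk]; exact orderOf_dvd_natCard _)
          ).coprime_dvd_right (by rw [← Subgroup.orderOf_mk b hb]; exact orderOf_dvd_natCard _))
      exact hk1 (Subgroup.mem_bot.1 (hfpf' b hb hb1 ▸
        Subgroup.mem_inf.2 ⟨hk, Subgroup.mem_centralizer_singleton_iff.2 hc.eq⟩))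
    haveI := hL
    have h1 : K.subgroupOf L = ⊤ := by
      refine normalizerCondition_iff_only_full_group_self_normalizing.1
        Group.normalizerCondition_of_isNilpotent _ ?_
      rw [← Subgroup.subgroupOf_normalizer_eq hle, hNK]
      exact le_antisymm (fun y hy => hLM ⟨y.2, hy⟩) (fun y hy => hKM hy)
    exact le_antisymm (Subgroup.subgroupOf_eq_top.1 h1) hle
  · have h0 : E = ⊥ := (Subgroup.map_eq_bot_iff_of_injective _ M.subtype_injective).1 e
    refine hnn ?_
    have := Cfsg.Agent.H19.card_eq_index_of_isComplement' hE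
    rw [h0, Subgroup.card_bot] at this
    rw [Subgroup.index_eq_one.1 this.symm] at hFn
    haveI := hFn
    exact Group.nilpotent_of_mulEquiv Subgroup.topEquiv

/-- The normalizer of a maximal nilpotent subgroup is maximal, with that subgroup as its kernel. -/
theorem IsMaxNilp.normalizer_maximal [Finite G] (hG : Cfsg.IsMinSimpleOddOrder G)
    (hCN : Cfsg.IsCNGroup G) {H : Subgroup G} (hH : IsMaxNilp H) :
    IsCoatom (Subgroup.normalizer (H : Set G)) ∧
      Cfsg.fittingHallOf (Subgroup.normalizer (H : Set G)) = H := by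
  haveI := minSimple_nontrivial hG
  obtain ⟨M, hM, hNM⟩ := (eq_top_or_exists_le_coatom (Subgroup.normalizer (H : Set G))).resolve_left
    (minSimple_normalizer_ne_top hG hH.ne_bot hH.1)
  obtain ⟨hK, hNK, E, ⟨hKM, hEM, hKE, hsplit⟩, hE1, hcop, hfpf⟩ := maximal_structure hG hCN hM
  set K := Cfsg.fittingHallOf M with hKdef
  have hHM : H ≤ M := Subgroup.le_normalizer.trans hNM
  suffices hHK : K = H by
    subst hHK
    refine ⟨?_, ?_⟩ <;> rw [hNK]
    exact hM
  by_contra hne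
  have hint : ∀ x ∈ H, x ∈ K → x = 1 := fun x hx hxK => by
    by_contra hx1
    exact hne (hK.eq_of_mem hG hCN hH hxK hx hx1)
  -- `H` is conjugate to a subgroup of the complement, so self-normalizing
  have hHKcop : (Nat.card H).Coprime (Nat.card K) := by
    refine Nat.coprime_of_dvd fun r hr h1 h2 => ?_
    haveI : Fact r.Prime := ⟨hr⟩
    obtain ⟨S, hS⟩ := hH.sylow_le hCN h1
    obtain ⟨S', hS'⟩ := hK.sylow_le hCN h2
    -- both Sylow subgroups of `M`; `K` is normal
    obtain ⟨m, hm⟩ := MulAction.exists_smul_eq M (S'.subtype (hS'.trans hKM)) (S.subtype (hS.trans hHM))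
    obtain ⟨x, hx, hx1⟩ := (Subgroup.bot_or_exists_ne_one (S : Subgroup G)).resolve_left
      (S.ne_bot_of_dvd_card (h1.trans (Subgroup.card_subgroup_dvd_card H)))
    refine hx1 (hint x (hS hx) ?_)
    have h6 : (⟨x, hHM (hS hx)⟩ : M) ∈ ((S.subtype (hS.trans hHM)) : Subgroup M) := hx
    rw [← hm, Sylow.coe_subgroup_smul, Cfsg.Agent.H19.mem_conj_smul] at h6
    have h7 : (m : G)⁻¹ * x * m ∈ K := hS' h6
    have h8 := (Subgroup.mem_normalizer_iff.1 (hNK.symm ▸ m.2 : (m : G) ∈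
      Subgroup.normalizer (K : Set G)) _).1 h7
    simpa [mul_assoc] using h8
  haveI : (K.subgroupOf M).Normal :=
    (Subgroup.normal_subgroupOf_iff_le_normalizer hKM).2 hNK.ge
  have hKc : Nat.card (K.subgroupOf M) = Nat.card K :=
    Nat.card_congr (Subgroup.subgroupOfEquivOfLe hKM).toEquiv
  have hcompl : Subgroup.IsComplement' (K.subgroupOf M) (E.subgroupOf M) := by
    refine Subgroup.isComplement'_of_disjoint_and_mul_eq_univ ?_ ?_
    · rw [disjoint_iff, Subgroup.subgroupOf, Subgroup.subgroupOf, ← Subgroup.comap_inf, hKE]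
      exact Subgroup.bot_subgroupOf M
    · rw [Set.eq_univ_iff_forall]
      intro m
      obtain ⟨a, ha, b, hb, h⟩ := hsplit m m.2
      exact ⟨⟨a, hKM ha⟩, ha, ⟨b, hEM hb⟩, hb, Subtype.ext h.symm⟩
  have hKhall : (Nat.card (K.subgroupOf M)).Coprime (K.subgroupOf M).index := by
    rw [hKc, ← Cfsg.Agent.H19.card_eq_index_of_isComplement' hcompl,
      Nat.card_congr (Subgroup.subgroupOfEquivOfLe hEM).toEquiv]
    exact hcop.symm
  haveI := minSimple_solvable hG hM.1
  obtain ⟨n, -, hn⟩ := Cfsg.Agent.H19.sz_contained (K.subgroupOf M) hKhall hcompl (H.subgroupOf M)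
    (by rw [hKc, Nat.card_congr (Subgroup.subgroupOfEquivOfLe hHM).toEquiv]; exact hHKcop)
    (Or.inl inferInstance)
  refine hH.normalizer_ne hG hCN (le_antisymm (fun g hg => ?_) Subgroup.le_normalizer)
  -- write `g = k * h`
  have hgM := hNM hg
  set E' := MulAut.conj (n : G) • E with hE'
  have hHE' : H ≤ E' := fun h hh => by
    have h1 := hn (show (⟨h, hHM hh⟩ : M) ∈ H.subgroupOf M from hh)
    rw [Cfsg.Agent.H19.mem_conj_smul] at h1
    rw [hE', Cfsg.Agent.H19.mem_conj_smul]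
    exact h1
  have hfpf' : ∀ e ∈ E', e ≠ 1 → ∀ k ∈ K, Commute e k → k = 1 := by
    intro e he he1 k hk hc
    rw [hE', Cfsg.Agent.H19.mem_conj_smul] at he
    have hkn : (n : G)⁻¹ * k * n ∈ K :=
      (Subgroup.mem_normalizer_iff''.1 (hNK.symm ▸ n.2 : (n : G) ∈
        Subgroup.normalizer (K : Set G)) k).1 hk
    have hne1 : (n : G)⁻¹ * e * n ≠ 1 := fun h => he1 (by
      simpa [mul_assoc] using congrArg (fun t => (n : G) * t * (n : G)⁻¹) h)
    have h1 := Subgroup.mem_bot.1 (hfpf _ he hne1 ▸ Subgroup.mem_inf.2 ⟨hkn,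
      Subgroup.mem_centralizer_singleton_iff.2 (by
        calc (n : G)⁻¹ * k * n * ((n : G)⁻¹ * e * n) = (n : G)⁻¹ * (k * e) * n := by group
          _ = (n : G)⁻¹ * (e * k) * n := by rw [hc.eq]
          _ = (n : G)⁻¹ * e * n * ((n : G)⁻¹ * k * n) := by group)⟩)
    simpa [mul_assoc] using congrArg (fun t => (n : G) * t * (n : G)⁻¹) h1
  have hE'M : E' ≤ M := fun e he => by
    rw [hE', Cfsg.Agent.H19.mem_conj_smul] at he
    simpa [mul_assoc] using M.mul_mem (M.mul_mem n.2 (hEM he)) (M.inv_mem n.2)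
  obtain ⟨z, hzH, hz1, hzc⟩ := exists_central_ne_one hH.1 hH.ne_bot
  obtain ⟨k, hk, e, he, rfl⟩ : ∃ k ∈ K, ∃ e ∈ E', g = k * e := by
    obtain ⟨a, ha, b, hb, h⟩ := hsplit _ (M.mul_mem (M.mul_mem (M.inv_mem n.2) hgM) n.2)
    refine ⟨(n : G) * a * (n : G)⁻¹, (Subgroup.mem_normalizer_iff.1 (hNK.symm ▸ n.2 : (n : G) ∈
      Subgroup.normalizer (K : Set G)) a).1 ha, (n : G) * b * (n : G)⁻¹, ?_, ?_⟩
    · rw [hE', Cfsg.Agent.H19.mem_conj_smul]; simpa [mul_assoc] using hb
    · calc g = (n : G) * ((n : G)⁻¹ * g * n) * (n : G)⁻¹ := by group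
        _ = _ := by rw [h]; group
  -- `k` commutes with a conjugate of `z`, so `k = 1`
  set c := e * z * e⁻¹ with hc
  have hcE : c ∈ E' := E'.mul_mem (E'.mul_mem he (hHE' hzH)) (E'.inv_mem he)
  have hconj : k * c * k⁻¹ ∈ H := by
    simpa [hc, mul_assoc] using (Subgroup.mem_normalizer_iff.1 hg z).1 hzH
  have hk1 : k = 1 := by
    refine hfpf' c hcE (fun h => hz1 ?_) k hk ?_
    · simpa [hc, mul_assoc] using congrArg (fun t => e⁻¹ * t * e) h
    · have hK' : k * c * k⁻¹ * c⁻¹ ∈ K := by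
        rw [show k * c * k⁻¹ * c⁻¹ = k * (c * k⁻¹ * c⁻¹) by group]
        exact K.mul_mem hk ((Subgroup.mem_normalizer_iff.1
          (hNK.symm ▸ hE'M hcE : c ∈ Subgroup.normalizer (K : Set G)) _).1 (K.inv_mem hk))
      have hE'' : k * c * k⁻¹ * c⁻¹ ∈ E' := E'.mul_mem (hHE' hconj) (E'.inv_mem hcE)
      have h1 : k * c * k⁻¹ * c⁻¹ = 1 := by
        by_contra hne'
        exact hne' (hfpf' _ hE'' hne' _ hK' (Commute.refl _))
      exact (mul_inv_eq_iff_eq_mul.1 (mul_inv_eq_one.1 h1)).symm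
  subst hk1
  rw [one_mul] at hg ⊢
  have hle : H ≤ E' := hHE'
  haveI hEnil : Group.IsNilpotent E' := by
    obtain ⟨w, hw, hw1⟩ := (Subgroup.bot_or_exists_ne_one K).resolve_left hK.ne_bot
    refine nilpotent_mono ?_ (minSimple_complement_nilpotent hCN (K := K) (E := E') ?_ ?_ ⟨w, hw, hw1⟩)
    · exact le_rfl
    · exact hE'M.trans hNK.ge
    · exact hfpf'
  exact (hH.2 E' hEnil hle) ▸ he
where
  minSimple_complement_nilpotent {A : Type _} [Group A] [Finite A] (hCN : Cfsg.IsCNGroup A)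
      {K E : Subgroup A} (hEN : E ≤ Subgroup.normalizer (K : Set A))
      (hfpf : ∀ e ∈ E, e ≠ 1 → ∀ k ∈ K, Commute e k → k = 1) (hK : ∃ w ∈ K, w ≠ 1) :
      Group.IsNilpotent E := by
    rcases eq_or_ne E ⊥ with rfl | hE1
    · infer_instance
    obtain ⟨w, hw, hw1⟩ := hK
    haveI : Nontrivial E := (Subgroup.nontrivial_iff_ne_bot E).2 hE1
    haveI : Nontrivial K := ⟨⟨⟨w, hw⟩, 1, fun h => hw1 (congrArg Subtype.val h)⟩⟩
    have hfix : ∀ e ∈ E, e ≠ 1 → K ⊓ Subgroup.centralizer ({e} : Set A) = ⊥ := fun e he he1 => by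
      rw [eq_bot_iff]
      rintro k ⟨hk, hc⟩
      exact Subgroup.mem_bot.2 (hfpf e he he1 k hk (Subgroup.mem_centralizer_singleton_iff.1 hc).symm)
    obtain ⟨z, hz, hz1⟩ := (Subgroup.bot_or_exists_ne_one _).resolve_left
      (Cfsg.Agent.H21.center_ne_bot_of_fpf _ (Cfsg.Agent.H21.conjHom_fpf hEN hfix))
    exact cn_nilpotent hCN (fun e => hz1 (Subtype.ext e)) fun a ha =>
      Subgroup.mem_centralizer_singleton_iff.2
        (congrArg Subtype.val (Subgroup.mem_center_iff.1 hz ⟨a, ha⟩))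

end Cfsg.Agent.H54
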