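import Mathlib
import Cfsg.Agent.H54.CNMaximal

/-!
Conjugacy classes of maximal nilpotent subgroups in minimal simple CN-groups of odd order.
-/

set_option autoImplicit false
set_option linter.style.haveILetI false
open scoped Pointwise

namespace Cfsg.Agent.H54

variable {G : Type*} [Group G] [Finite G]

/-- Maximal nilpotent subgroups are conjugate or of coprime orders. -/
theorem IsMaxNilp.conj_or_coprime (hG : Cfsg.IsMinSimpleOddOrder G) (hCN : Cfsg.IsCNGroup G)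
    {H₁ H₂ : Subgroup G} (h₁ : IsMaxNilp H₁) (h₂ : IsMaxNilp H₂) :
    (∃ g : G, H₂ = H₁.map (MulAut.conj g).toMonoidHom) ∨ (Nat.card H₁).Coprime (Nat.card H₂) := by
  by_cases h : (Nat.card H₁).Coprime (Nat.card H₂)
  · exact Or.inr h
  refine Or.inl ?_
  obtain ⟨p, hp, hd1, hd2⟩ := Nat.Prime.not_coprime_iff_dvd.1 h
  haveI : Fact p.Prime := ⟨hp⟩
  obtain ⟨S₁, hS₁⟩ := h₁.sylow_le hCN hd1
  obtain ⟨S₂, hS₂⟩ := h₂.sylow_le hCN hd2
  obtain ⟨g, hg⟩ := MulAction.exists_smul_eq G S₁ S₂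
  obtain ⟨x, hx, hx1⟩ := (Subgroup.bot_or_exists_ne_one (S₂ : Subgroup G)).resolve_left
    (S₂.ne_bot_of_dvd_card (hd2.trans (Subgroup.card_subgroup_dvd_card H₂)))
  refine ⟨g, (IsMaxNilp.eq_of_mem hG hCN (h₁.map (MulAut.conj g)) h₂ ?_ (hS₂ hx) hx1).symm⟩
  rw [← hg] at hx
  obtain ⟨s, hs, rfl⟩ := hx
  exact ⟨s, hS₁ hs, rfl⟩

omit [Finite G] in
/-- An element generating an `r`-group, in terms of its order. -/
theorem isPGroup_zpowers_of_orderOf {r : ℕ} [Fact r.Prime] {z : G} (hz : orderOf z = r) :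
    IsPGroup r (Subgroup.zpowers z) :=
  IsPGroup.of_card (n := 1) (by rw [Nat.card_zpowers, hz, pow_one])

/-- A nontrivial element of `r`-power order in `H` shows that `r` divides the order of `H`. -/
theorem prime_dvd_card_of_mem {r : ℕ} [Fact r.Prime] {z : G} {H : Subgroup G} (hz : z ∈ H)
    (hz1 : z ≠ 1) (h : IsPGroup r (Subgroup.zpowers z)) : r ∣ Nat.card H := by
  obtain ⟨k, hk⟩ := IsPGroup.iff_card.1 h
  rcases k with _ | k
  · exact absurd (Subgroup.zpowers_eq_bot.1 (Subgroup.card_eq_one.1 (by rw [hk, pow_zero]))) hz1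
  · exact ((dvd_pow_self r k.succ_ne_zero).trans hk.symm.dvd).trans
      (Subgroup.card_dvd_of_le (Subgroup.zpowers_le.2 hz))

/-- Commuting is transitive on primes. -/
theorem commuting_primes_trans (hG : Cfsg.IsMinSimpleOddOrder G) (hCN : Cfsg.IsCNGroup G)
    {p q r : ℕ} [Fact p.Prime] [Fact q.Prime] [Fact r.Prime] {x y y' z : G} (hx1 : x ≠ 1)
    (hy1 : y ≠ 1) (hy'1 : y' ≠ 1) (hz1 : z ≠ 1) (hxp : IsPGroup p (Subgroup.zpowers x))
    (hyq : IsPGroup q (Subgroup.zpowers y)) (hy'q : IsPGroup q (Subgroup.zpowers y'))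
    (hzr : IsPGroup r (Subgroup.zpowers z)) (hxy : x * y = y * x) (hyz : y' * z = z * y') :
    ∃ x' z' : G, x' ≠ 1 ∧ z' ≠ 1 ∧ IsPGroup p (Subgroup.zpowers x') ∧
      IsPGroup r (Subgroup.zpowers z') ∧ x' * z' = z' * x' := by
  obtain ⟨H₁, hH₁, hy⟩ := exists_maxNilp_le (isNilpotent_zpowers y)
  obtain ⟨H₂, hH₂, hy'⟩ := exists_maxNilp_le (isNilpotent_zpowers y')
  have hyH := hy (Subgroup.mem_zpowers y)
  have hy'H := hy' (Subgroup.mem_zpowers y')
  have hxH : x ∈ H₁ := hH₁.centralizer_le' hG hCN hyH hy1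
    (Subgroup.mem_centralizer_singleton_iff.2 hxy)
  have hzH : z ∈ H₂ := hH₂.centralizer_le' hG hCN hy'H hy'1
    (Subgroup.mem_centralizer_singleton_iff.2 hyz.symm)
  obtain ⟨g, hg⟩ := (hH₁.conj_or_coprime hG hCN hH₂).resolve_right fun h =>
    (Fact.out : q.Prime).not_dvd_one (h.gcd_eq_one ▸ Nat.dvd_gcd
      (prime_dvd_card_of_mem hyH hy1 hyq) (prime_dvd_card_of_mem hy'H hy'1 hy'q))
  have hr : r ∣ Nat.card H₁ := by
    have h := prime_dvd_card_of_mem hzH hz1 hzr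
    rwa [hg, Subgroup.card_map_of_injective (MulAut.conj g).injective] at h
  obtain ⟨x', hx'H, hx', hx'c⟩ :=
    exists_central_of_dvd hH₁.1 (prime_dvd_card_of_mem hxH hx1 hxp)
  obtain ⟨z', hz'H, hz', -⟩ := exists_central_of_dvd hH₁.1 hr
  exact ⟨x', z', fun e => (Fact.out : p.Prime).one_lt.ne (by rw [← hx', e, orderOf_one]),
    fun e => (Fact.out : r.Prime).one_lt.ne (by rw [← hz', e, orderOf_one]),
    isPGroup_zpowers_of_orderOf hx', isPGroup_zpowers_of_orderOf hz', (hx'c z' hz'H).eq⟩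

/-- Maximal subgroups with conjugate kernels are conjugate. -/
theorem maximal_conj_of_kernel_conj (hG : Cfsg.IsMinSimpleOddOrder G) (hCN : Cfsg.IsCNGroup G)
    {M M' : Subgroup G} (hM : IsCoatom M) (hM' : IsCoatom M') {g : G}
    (h : Cfsg.fittingHallOf M' = (Cfsg.fittingHallOf M).map (MulAut.conj g).toMonoidHom) :
    M' = M.map (MulAut.conj g).toMonoidHom := by
  obtain ⟨-, hN, -⟩ := maximal_structure hG hCN hM
  obtain ⟨-, hN', -⟩ := maximal_structure hG hCN hM'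
  rw [← hN', h, ← Subgroup.map_equiv_normalizer_eq, hN]

/-- The covering of a minimal simple CN-group of odd order by the kernels. -/
theorem kernels_cover (hG : Cfsg.IsMinSimpleOddOrder G) (hCN : Cfsg.IsCNGroup G) {ι : Type*}
    [Fintype ι] (Mrep : ι → Subgroup G) (hmax : ∀ i, IsCoatom (Mrep i))
    (hnc : ∀ i j, i ≠ j → ∀ g : G, Mrep j ≠ (Mrep i).map (MulAut.conj g).toMonoidHom)
    (hall : ∀ M : Subgroup G, IsCoatom M → ∃ i, ∃ g : G, M = (Mrep i).map (MulAut.conj g).toMonoidHom) :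
    (∀ i j, i ≠ j → (Nat.card (Cfsg.fittingHallOf (Mrep i))).Coprime
        (Nat.card (Cfsg.fittingHallOf (Mrep j)))) ∧
      ∏ i, Nat.card (Cfsg.fittingHallOf (Mrep i)) = Nat.card G ∧
      ∀ x : G, ∃ i, ∃ g : G, g * x * g⁻¹ ∈ Cfsg.fittingHallOf (Mrep i) := by
  haveI := minSimple_nontrivial hG
  have hK : ∀ i, IsMaxNilp (Cfsg.fittingHallOf (Mrep i)) := fun i =>
    (maximal_structure hG hCN (hmax i)).1
  have hcov : ∀ H : Subgroup G, IsMaxNilp H → ∃ i, ∃ g : G,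
      H = (Cfsg.fittingHallOf (Mrep i)).map (MulAut.conj g).toMonoidHom := by
    intro H hH
    obtain ⟨hco, hker⟩ := hH.normalizer_maximal hG hCN
    obtain ⟨i, g, hg⟩ := hall _ hco
    obtain ⟨-, hN, -⟩ := maximal_structure hG hCN (hmax i)
    refine ⟨i, g, ?_⟩
    set K := (Cfsg.fittingHallOf (Mrep i)).map (MulAut.conj g).toMonoidHom with hKdef
    have hKmax : IsMaxNilp K := (hK i).map (MulAut.conj g)
    have hNK : Subgroup.normalizer (K : Set G) = Subgroup.normalizer (H : Set G) := by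
      rw [hKdef, ← Subgroup.map_equiv_normalizer_eq, hN, hg]
    by_contra hne
    have hd : H ⊓ K = ⊥ := (Subgroup.bot_or_exists_ne_one _).resolve_right fun ⟨x, hx, hx1⟩ =>
      hne (hH.eq_of_mem hG hCN hKmax hx.1 hx.2 hx1)
    obtain ⟨z, hzH, hz1, hzc⟩ := exists_central_ne_one hH.1 hH.ne_bot
    have hsub : K ≤ H := by
      rw [← hH.centralizer_eq hCN hz1 hzc]
      intro k hk
      refine Subgroup.mem_centralizer_singleton_iff.2 ?_
      have h1 : k * z * k⁻¹ * z⁻¹ ∈ H ⊓ K :=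
        ⟨H.mul_mem ((Subgroup.mem_normalizer_iff.1
            (hNK ▸ Subgroup.le_normalizer hk) z).1 hzH) (H.inv_mem hzH), by
          rw [show k * z * k⁻¹ * z⁻¹ = k * (z * k⁻¹ * z⁻¹) by group]
          exact K.mul_mem hk ((Subgroup.mem_normalizer_iff.1
            (hNK.symm ▸ Subgroup.le_normalizer hzH) _).1 (K.inv_mem hk))⟩
      rw [hd, Subgroup.mem_bot, mul_inv_eq_one, mul_inv_eq_iff_eq_mul] at h1
      exact h1
    exact hKmax.ne_bot (le_bot_iff.1 (hd ▸ le_inf hsub le_rfl))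
  have hcop : ∀ i j, i ≠ j → (Nat.card (Cfsg.fittingHallOf (Mrep i))).Coprime
      (Nat.card (Cfsg.fittingHallOf (Mrep j))) := fun i j hij =>
    ((hK i).conj_or_coprime hG hCN (hK j)).resolve_left fun ⟨g, hg⟩ =>
      hnc i j hij g (maximal_conj_of_kernel_conj hG hCN (hmax i) (hmax j) hg)
  refine ⟨hcop, Nat.dvd_antisymm ?_ ?_, fun x => ?_⟩
  · exact Fintype.prod_dvd_of_isRelPrime (fun i j hij => Nat.coprime_iff_isRelPrime.1 (hcop i j hij))
      (fun i => Subgroup.card_subgroup_dvd_card _)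
  · refine (Nat.dvd_iff_prime_pow_dvd_dvd _ _).2 fun r k hr hd => ?_
    haveI : Fact r.Prime := ⟨hr⟩
    rcases k with _ | k
    · simp
    obtain ⟨x, hx⟩ := exists_prime_orderOf_dvd_card' (G := G) r
      ((dvd_pow_self r k.succ_ne_zero).trans hd)
    obtain ⟨H, hH, hxH⟩ := exists_maxNilp_le (isNilpotent_zpowers x)
    obtain ⟨i, g, hg⟩ := hcov H hH
    have hrK : r ∣ Nat.card (Cfsg.fittingHallOf (Mrep i)) := by
      have h := prime_dvd_card_of_mem (hxH (Subgroup.mem_zpowers x))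
        (fun e => hr.one_lt.ne (by rw [← hx, e, orderOf_one])) (isPGroup_zpowers_of_orderOf hx)
      rwa [hg, Subgroup.card_map_of_injective (MulAut.conj g).injective] at h
    obtain ⟨S, hS⟩ := (hK i).sylow_le hCN hrK
    refine (dvd_trans ?_ (Subgroup.card_dvd_of_le hS)).trans
      (Finset.dvd_prod_of_mem _ (Finset.mem_univ i))
    rw [S.card_eq_multiplicity]
    exact pow_dvd_pow r ((Nat.Prime.pow_dvd_iff_le_factorization hr Nat.card_pos.ne').1 hd)
  · obtain ⟨H, hH, hxH⟩ := exists_maxNilp_le (isNilpotent_zpowers x)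
    obtain ⟨i, g, hg⟩ := hcov H hH
    obtain ⟨k, hk, rfl⟩ := hg.le (hxH (Subgroup.mem_zpowers x))
    exact ⟨i, g⁻¹, by simpa [mul_assoc] using hk⟩

end Cfsg.Agent.H54
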