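import Cfsg.Agent.H54.Listed
import Cfsg.Agent.H54.FittingHallNe

/-! The listed S1437 from the local inputs. -/

set_option autoImplicit false

namespace Cfsg.Agent.H54

universe u

theorem listed1437_holds {G : Type u} [Group G] [Finite G] (hG : Cfsg.IsMinSimpleOddOrder G)
    (H : H33.LocalInputs G) : Listed1437 G := fitting_hall_ne_structure hG H

end Cfsg.Agent.H54
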